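import Cfsg.Agent.Lib.H04.Small.Tools
import Cfsg.Agent.Lib.H15.Cyc2

/-!
# Simple groups of order 168
-/

set_option autoImplicit false
set_option linter.style.haveILetI false
set_option linter.unusedSectionVars false
set_option linter.unusedVariables false

namespace Cfsg.Agent.H04.Small

open MulAction Subgroup Cfsg.Agent.H04

section general

variable {G : Type*} [Group G] [Finite G]

theorem centralizer_zpowers_eq (x : G) :
    centralizer ((zpowers x : Subgroup G) : Set G) = centralizer ({x} : Set G) := by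
  ext c
  rw [mem_centralizer_iff, mem_centralizer_iff]
  constructor
  · intro h w hw
    have hw' : w = x := hw
    rw [hw']
    exact h x (mem_zpowers x)
  · intro h w hw
    obtain ⟨k, rfl⟩ := hw
    have hcz : Commute x c := h x rfl
    exact (hcz.zpow_left k).eq

/-- Fixed point count for conjugation by an element of prime order. -/
theorem card_modEq_fix {P : Subgroup G} {l : ℕ} (hl : l.Prime) {y : G}
    (hy : y ∈ normalizer (P : Set G)) (hord : orderOf y = l) :
    Nat.card P ≡ Nat.card ((centralizer ({y} : Set G)).subgroupOf P) [MOD l] := by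
  classical
  haveI : Fact l.Prime := ⟨hl⟩
  haveI := Fintype.ofFinite P
  let f : Function.End P := fun x => ⟨y * x.1 * y⁻¹, (Subgroup.mem_normalizer_iff.1 hy x.1).1 x.2⟩
  have hfk : ∀ (k : ℕ) (x : P), ((f ^ k) x : G) = y ^ k * x.1 * (y ^ k)⁻¹ := by
    intro k
    induction k with
    | zero =>
      intro x
      rw [pow_zero]
      show x.1 = _
      simp
    | succ k ih =>
      intro x
      rw [pow_succ']
      show y * ((f ^ k) x : G) * y⁻¹ = _
      rw [ih]
      rw [pow_succ']
      group
  have hfl : f ^ l ^ 1 = 1 := by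
    rw [pow_one]
    funext x
    apply Subtype.ext
    rw [hfk, ← hord, pow_orderOf_eq_one]
    show _ = x.1
    simp
  have hmod := Equiv.Perm.card_fixedPoints_modEq (f := f) (p := l) (n := 1) hfl
  let F : Subgroup P := (centralizer ({y} : Set G)).subgroupOf P
  have hFmem : ∀ x : P, x ∈ F ↔ f x = x := by
    intro x
    rw [Subgroup.mem_subgroupOf, Subgroup.mem_centralizer_iff]
    constructor
    · intro h
      apply Subtype.ext
      show y * x.1 * y⁻¹ = x.1
      have := h y rfl
      rw [this]
      group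
    · intro h z hz
      have hz' : z = y := hz
      rw [hz']
      have h1 : y * x.1 * y⁻¹ = x.1 := congrArg Subtype.val h
      calc y * x.1 = (y * x.1 * y⁻¹) * y := by group
        _ = x.1 * y := by rw [h1]
  have hcardF : Fintype.card f.fixedPoints = Nat.card F := by
    rw [← Nat.card_eq_fintype_card]
    exact Nat.card_congr
      { toFun := fun x => ⟨x.1, (hFmem x.1).2 x.2⟩
        invFun := fun x => ⟨x.1, (hFmem x.1).1 x.2⟩
        left_inv := fun x => rfl
        right_inv := fun x => rfl }
  rw [hcardF, ← Nat.card_eq_fintype_card] at hmod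
  exact hmod

/-- Existence of a fixed nonidentity element. -/
theorem exists_fix_of_mod {P : Subgroup G} {l : ℕ} (hl : l.Prime) {y : G}
    (hy : y ∈ normalizer (P : Set G)) (hord : orderOf y = l) (hmod : ¬ Nat.card P ≡ 1 [MOD l]) :
    ∃ t ∈ P, t ≠ 1 ∧ y * t = t * y := by
  by_contra hcon
  push Not at hcon
  apply hmod
  have h1 := card_modEq_fix hl hy hord
  have h2 : (centralizer ({y} : Set G)).subgroupOf P = ⊥ := by
    rw [eq_bot_iff]
    intro t ht
    rw [Subgroup.mem_subgroupOf, Subgroup.mem_centralizer_iff] at ht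
    rw [Subgroup.mem_bot]
    by_contra ht1
    have ht1' : (t : G) ≠ 1 := fun h => ht1 (Subtype.ext h)
    exact hcon t t.2 ht1' (ht y rfl)
  rw [h2, Subgroup.card_bot] at h1
  exact h1

/-- The action on Sylow subgroups is faithful in a simple group with several Sylow subgroups. -/
theorem toPerm_sylow_injective [IsSimpleGroup G] {p : ℕ} [Fact p.Prime] (hn : Nat.card (Sylow p G) ≠ 1) :
    Function.Injective (MulAction.toPermHom G (Sylow p G)) := by
  rw [← MonoidHom.ker_eq_bot_iff]
  rcases IsSimpleGroup.eq_bot_or_eq_top_of_normal _ (MonoidHom.normal_ker (MulAction.toPermHom G (Sylow p G))) with h | h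
  · exact h
  · exfalso
    apply hn
    obtain P : Sylow p G := default
    rw [Nat.card_eq_one_iff_unique]
    refine ⟨⟨fun Q R => ?_⟩, ⟨P⟩⟩
    obtain ⟨g, hg⟩ := MulAction.exists_smul_eq G Q R
    have hgk : g ∈ (MulAction.toPermHom G (Sylow p G)).ker := by rw [h]; trivial
    have h1 : (MulAction.toPermHom G (Sylow p G) g) Q = Q := by
      rw [MonoidHom.mem_ker.1 hgk]; rfl
    have h2 : g • Q = Q := h1
    rw [← hg, h2]

/-- The stabilizer of a Sylow subgroup in a subgroup `M`. -/
theorem card_stab_dvd {p : ℕ} [Fact p.Prime] (M : Subgroup G) (Q : Sylow p G) :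
    Nat.card (stabilizer M Q) ∣ Nat.card (normalizer ((Q : Subgroup G) : Set G)) := by
  have hle : (stabilizer M Q).map M.subtype ≤ normalizer ((Q : Subgroup G) : Set G) := by
    rintro _ ⟨u, hu, rfl⟩
    exact Sylow.smul_eq_iff_mem_normalizer.1 hu
  have h1 := Subgroup.card_dvd_of_le hle
  rwa [Nat.card_congr (Subgroup.equivMapOfInjective _ M.subtype M.subtype_injective).symm.toEquiv] at h1

/-- Centralizer of an element of prime order whose group has a Sylow of that order and small
centralizer. -/
theorem centralizer_eq_zpowers {p : ℕ} [Fact p.Prime] (hcard : ∀ Q : Sylow p G, Nat.card Q = p)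
    (hcent : ∀ Q : Sylow p G, Nat.card (centralizer ((Q : Subgroup G) : Set G)) = p)
    (x : G) (hx : orderOf x = p) : centralizer ({x} : Set G) = zpowers x := by
  have hp : p.Prime := Fact.out
  have hpg : IsPGroup p (zpowers x) := by
    rw [IsPGroup.iff_card, Nat.card_zpowers, hx]
    exact ⟨1, by simp⟩
  obtain ⟨Q, hQ⟩ := hpg.exists_le_sylow
  have hQeq : zpowers x = (Q : Subgroup G) := by
    apply Subgroup.eq_of_le_of_card_ge hQ
    rw [hcard Q, Nat.card_zpowers, hx]
  have h1 := hcent Q
  rw [← hQeq, centralizer_zpowers_eq] at h1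
  symm
  apply Subgroup.eq_of_le_of_card_ge
  · rw [Subgroup.zpowers_le, mem_centralizer_iff]
    intro w hw
    have hw' : w = x := hw
    rw [hw']
  · rw [h1, Nat.card_zpowers, hx]

end general

section O168

variable {G : Type*} [Group G] [Finite G] [IsSimpleGroup G]

instance fact7 : Fact (Nat.Prime 7) := ⟨by norm_num⟩
instance fact3 : Fact (Nat.Prime 3) := ⟨by norm_num⟩
instance fact2 : Fact (Nat.Prime 2) := ⟨by norm_num⟩

theorem inv_mul_inv_of_four {S : Type*} [Group S] (a : S) (h : a ^ 4 = 1) : a⁻¹ * a⁻¹ = a * a := by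
  have h4 : a * a * (a * a) = 1 := by
    rw [← h]
    simp only [pow_succ, pow_zero, one_mul, mul_assoc]
  calc a⁻¹ * a⁻¹ = (a⁻¹ * a⁻¹) * (a * a * (a * a)) := by rw [h4, mul_one]
    _ = a * a := by simp [mul_assoc]

theorem o_hnc (h : Nat.card G = 168) : ¬ IsMulCommutative G :=
  not_isMulCommutative_of_not_prime (by rw [h]; norm_num)

theorem o_index (h : Nat.card G = 168) (H : Subgroup G) (hH : H ≠ ⊤) : 6 < H.index := by
  apply index_lower (o_hnc h) 6 _ H hH
  rw [h]
  norm_num [Nat.factorial]

theorem o_card7 (h : Nat.card G = 168) (S : Sylow 7 G) : Nat.card S = 7 :=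
  card_sylow_eq_prime 24 (by rw [h]) (by norm_num) S

theorem o_card3 (h : Nat.card G = 168) (S : Sylow 3 G) : Nat.card S = 3 :=
  card_sylow_eq_prime 56 (by rw [h]) (by norm_num) S

theorem o_card2 (h : Nat.card G = 168) (S : Sylow 2 G) : Nat.card S = 8 := by
  have := card_sylow_eq_pow (p := 2) 3 21 (by rw [h]; norm_num) (by norm_num) S
  simpa using this

theorem o_ne_top {p : ℕ} [Fact p.Prime] (h : Nat.card G = 168) (S : Sylow p G) (h1 : Nat.card S ≠ 1) (h2 : Nat.card S ≠ 168) :
    normalizer ((S : Subgroup G) : Set G) ≠ ⊤ := by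
  apply normalizer_ne_top
  · intro hb
    apply h1
    show Nat.card (S : Subgroup G) = 1
    rw [hb]; simp
  · intro hb
    apply h2
    show Nat.card (S : Subgroup G) = 168
    rw [hb, Subgroup.card_top, h]

/-- `n₇ = 8`. -/
theorem o_n7 (h : Nat.card G = 168) : Nat.card (Sylow 7 G) = 8 := by
  obtain P : Sylow 7 G := default
  have hd : Nat.card (Sylow 7 G) ∣ 24 := card_sylow_dvd_of_card_eq P 24 (by rw [o_card7 h P, h])
  have hm : Nat.card (Sylow 7 G) ≡ 1 [MOD 7] := card_sylow_modEq_one 7 G
  have hne : Nat.card (Sylow 7 G) ≠ 1 :=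
    sylow_ne_normal (by rw [h]; norm_num) P (by rw [o_card7 h P]; norm_num)
  generalize Nat.card (Sylow 7 G) = n at *
  have := Nat.le_of_dvd (by norm_num) hd
  unfold Nat.ModEq at hm
  interval_cases n <;> omega

theorem o_N7 (h : Nat.card G = 168) (S : Sylow 7 G) :
    Nat.card (normalizer ((S : Subgroup G) : Set G)) = 21 := by
  have := card_normalizer_mul S
  rw [o_n7 h, h] at this
  omega

theorem o_C7 (h : Nat.card G = 168) (S : Sylow 7 G) :
    Nat.card (centralizer ((S : Subgroup G) : Set G)) = 7 := by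
  obtain ⟨h1, h2, h3⟩ := nc_facts (o_hnc h) S (o_card7 h S)
  rw [o_N7 h S] at h3
  have hcm := card_eq_relIndex_mul (centralizer_le_normalizer_of (S : Subgroup G))
  rw [o_N7 h S] at hcm
  have he : (centralizer ((S : Subgroup G) : Set G)).relIndex (normalizer ((S : Subgroup G) : Set G)) ∣ Nat.gcd 6 21 :=
    Nat.dvd_gcd h2 h3
  have h5 : Nat.gcd 6 21 = 3 := by norm_num
  rw [h5] at he
  rcases (Nat.dvd_prime (by norm_num)).1 he with h6 | h6
  · exact absurd h6 h1
  · rw [h6] at hcm
    omega

theorem o_cent7 (h : Nat.card G = 168) (x : G) (hx : orderOf x = 7) :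
    centralizer ({x} : Set G) = zpowers x :=
  centralizer_eq_zpowers (o_card7 h) (o_C7 h) x hx

/-- `n₃ = 28`. -/
theorem o_n3 (h : Nat.card G = 168) : Nat.card (Sylow 3 G) = 28 := by
  obtain P : Sylow 3 G := default
  have hd : Nat.card (Sylow 3 G) ∣ 56 := card_sylow_dvd_of_card_eq P 56 (by rw [o_card3 h P, h])
  have hm : Nat.card (Sylow 3 G) ≡ 1 [MOD 3] := card_sylow_modEq_one 3 G
  have hi := o_index h _ (o_ne_top h P (by rw [o_card3 h P]; norm_num) (by rw [o_card3 h P]; norm_num))
  have hidx' : (normalizer ((P : Subgroup G) : Set G)).index = Nat.card (Sylow 3 G) := (P.card_eq_index_normalizer).symm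
  rw [hidx'] at hi
  have hcases : Nat.card (Sylow 3 G) = 7 ∨ Nat.card (Sylow 3 G) = 28 := by
    generalize Nat.card (Sylow 3 G) = n at *
    have := Nat.le_of_dvd (by norm_num) hd
    unfold Nat.ModEq at hm
    interval_cases n <;> omega
  rcases hcases with h7 | h28
  · exfalso
    -- an element of order three normalizing a Sylow `7`-subgroup
    obtain Q : Sylow 7 G := default
    obtain ⟨x', hx'⟩ := exists_prime_orderOf_dvd_card' (G := normalizer ((Q : Subgroup G) : Set G)) 3 (by
      rw [o_N7 h Q]; norm_num)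
    set x : G := (x' : G) with hxdef
    have hxo : orderOf x = 3 := by rw [hxdef]; rwa [Subgroup.orderOf_coe]
    have hxN : x ∈ normalizer ((Q : Subgroup G) : Set G) := x'.2
    have hpg : IsPGroup 3 (zpowers x) := by
      rw [IsPGroup.iff_card, Nat.card_zpowers, hxo]
      exact ⟨1, by simp⟩
    obtain ⟨S, hS⟩ := hpg.exists_le_sylow
    have hSeq : zpowers x = (S : Subgroup G) := by
      apply Subgroup.eq_of_le_of_card_ge hS
      rw [show Nat.card (S : Subgroup G) = 3 from o_card3 h S, Nat.card_zpowers, hxo]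
    have hNS : Nat.card (normalizer ((S : Subgroup G) : Set G)) = 24 := by
      have := card_normalizer_mul S
      rw [h7, h] at this
      omega
    set M := normalizer ((S : Subgroup G) : Set G) with hM
    -- the stabilizer of `Q` in `M` has order at most three
    have hst1 : Nat.card (stabilizer M Q) ∣ 21 := by
      have := card_stab_dvd M Q
      rwa [o_N7 h Q] at this
    have hst2 : Nat.card (stabilizer M Q) ∣ 24 := by
      rw [← hNS]
      exact Subgroup.card_subgroup_dvd_card _
    have hst3 : Nat.card (stabilizer M Q) ∣ 3 := by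
      have := Nat.dvd_gcd hst1 hst2
      simpa using this
    have horb := card_orbit_mul_card_stabilizer (P := M) Q
    rw [hNS] at horb
    have hst4 : Nat.card (stabilizer M Q) ≤ 3 := Nat.le_of_dvd (by norm_num) hst3
    have horb8 : 8 ≤ Nat.card (orbit M Q) := by
      by_contra hlt
      push Not at hlt
      have h9 : Nat.card (orbit M Q) * Nat.card (stabilizer M Q) ≤ 7 * 3 := Nat.mul_le_mul (by omega) hst4
      omega
    have huniv : orbit M Q = Set.univ := by
      apply Set.eq_of_subset_of_ncard_le (Set.subset_univ _)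
      rw [Set.ncard_univ, o_n7 h, ← Nat.card_coe_set_eq]
      exact horb8
    have hker : x ∈ (MulAction.toPermHom G (Sylow 7 G)).ker := by
      rw [MonoidHom.mem_ker]
      refine Equiv.ext fun R => ?_
      show x • R = R
      have hR : R ∈ orbit M Q := by rw [huniv]; trivial
      obtain ⟨n, rfl⟩ := hR
      show x • ((n : G) • Q) = (n : G) • Q
      have hx' : (n : G)⁻¹ * x * (n : G) ∈ (S : Subgroup G) := by
        have h1 : x ∈ (S : Subgroup G) := by rw [← hSeq]; exact mem_zpowers x
        have := (Subgroup.mem_normalizer_iff.1 (inv_mem n.2) x).1 h1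
        simpa using this
      have hx'Q : (n : G)⁻¹ * x * (n : G) ∈ normalizer ((Q : Subgroup G) : Set G) := by
        rw [← hSeq] at hx'
        exact (Subgroup.zpowers_le.2 hxN) hx'
      have hfix : ((n : G)⁻¹ * x * (n : G)) • Q = Q := Sylow.smul_eq_iff_mem_normalizer.2 hx'Q
      calc x • ((n : G) • Q) = (n : G) • (((n : G)⁻¹ * x * (n : G)) • Q) := by
            simp [mul_smul]
        _ = (n : G) • Q := by rw [hfix]
    have hinj := toPerm_sylow_injective (p := 7) (G := G) (by rw [o_n7 h]; norm_num)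
    have hx1 : x = 1 := by
      have h5 := hker
      rw [(MonoidHom.ker_eq_bot_iff _).2 hinj] at h5
      exact h5
    rw [hx1, orderOf_one] at hxo
    omega
  · exact h28

theorem o_N3 (h : Nat.card G = 168) (S : Sylow 3 G) :
    Nat.card (normalizer ((S : Subgroup G) : Set G)) = 6 := by
  have := card_normalizer_mul S
  rw [o_n3 h, h] at this
  omega

theorem o_C3 (h : Nat.card G = 168) (S : Sylow 3 G) :
    Nat.card (centralizer ((S : Subgroup G) : Set G)) = 3 := by
  obtain ⟨h1, h2, h3⟩ := nc_facts (o_hnc h) S (o_card3 h S)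
  have hcm := card_eq_relIndex_mul (centralizer_le_normalizer_of (S : Subgroup G))
  rw [o_N3 h S] at hcm
  have he : (centralizer ((S : Subgroup G) : Set G)).relIndex (normalizer ((S : Subgroup G) : Set G)) ∣ 2 := h2
  rcases (Nat.dvd_prime (by norm_num)).1 he with h6 | h6
  · exact absurd h6 h1
  · rw [h6] at hcm
    omega

theorem o_cent3 (h : Nat.card G = 168) (x : G) (hx : orderOf x = 3) :
    centralizer ({x} : Set G) = zpowers x :=
  centralizer_eq_zpowers (o_card3 h) (o_C3 h) x hx

/-- A `2`-element does not commute with elements of order three or seven. -/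
theorem o_not_comm (h : Nat.card G = 168) {t y : G} (ht1 : t ≠ 1) {k : ℕ} (ht : t ^ (2 ^ k) = 1)
    (hy : orderOf y = 3 ∨ orderOf y = 7) : y * t ≠ t * y := by
  intro hc
  have hmem : t ∈ centralizer ({y} : Set G) := by
    rw [mem_centralizer_iff]
    intro w hw
    have hw' : w = y := hw
    rw [hw']
    exact hc
  have hd : orderOf t ∣ 2 ^ k := orderOf_dvd_of_pow_eq_one ht
  rcases hy with hy | hy
  · rw [o_cent3 h y hy] at hmem
    have h1 := Subgroup.orderOf_dvd_natCard _ hmem
    rw [Nat.card_zpowers, hy] at h1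
    have h2 : Nat.Coprime 3 (2 ^ k) := Nat.Coprime.pow_right k (by norm_num)
    have h3 := Nat.Coprime.eq_one_of_dvd (Nat.Coprime.coprime_dvd_left h1 h2) hd
    exact ht1 (orderOf_eq_one_iff.1 h3)
  · rw [o_cent7 h y hy] at hmem
    have h1 := Subgroup.orderOf_dvd_natCard _ hmem
    rw [Nat.card_zpowers, hy] at h1
    have h2 : Nat.Coprime 7 (2 ^ k) := Nat.Coprime.pow_right k (by norm_num)
    have h3 := Nat.Coprime.eq_one_of_dvd (Nat.Coprime.coprime_dvd_left h1 h2) hd
    exact ht1 (orderOf_eq_one_iff.1 h3)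

theorem o_two_pow (h : Nat.card G = 168) (T : Sylow 2 G) {t : G} (ht : t ∈ (T : Subgroup G)) : t ^ (2 ^ 3) = 1 := by
  have h1 := Subgroup.orderOf_dvd_natCard _ ht
  rw [show Nat.card (T : Subgroup G) = 8 from o_card2 h T] at h1
  exact orderOf_dvd_iff_pow_eq_one.1 h1

/-- `n₂ = 21`. -/
theorem o_n2 (h : Nat.card G = 168) : Nat.card (Sylow 2 G) = 21 := by
  obtain T : Sylow 2 G := default
  have hd : Nat.card (Sylow 2 G) ∣ 21 := card_sylow_dvd_of_card_eq T 21 (by rw [o_card2 h T, h])
  have hi := o_index h _ (o_ne_top h T (by rw [o_card2 h T]; norm_num) (by rw [o_card2 h T]; norm_num))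
  have hidx' : (normalizer ((T : Subgroup G) : Set G)).index = Nat.card (Sylow 2 G) := (T.card_eq_index_normalizer).symm
  rw [hidx'] at hi
  have hcases : Nat.card (Sylow 2 G) = 7 ∨ Nat.card (Sylow 2 G) = 21 := by
    generalize Nat.card (Sylow 2 G) = n at *
    have := Nat.le_of_dvd (by norm_num) hd
    interval_cases n <;> omega
  rcases hcases with h7 | h21
  · exfalso
    have hN := card_normalizer_mul T
    rw [h7, h] at hN
    obtain ⟨y', hy'⟩ := exists_prime_orderOf_dvd_card' (G := normalizer ((T : Subgroup G) : Set G)) 3 (by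
      have : Nat.card (normalizer ((T : Subgroup G) : Set G)) = 24 := by omega
      rw [this]; norm_num)
    have hyo : orderOf (y' : G) = 3 := by rwa [Subgroup.orderOf_coe]
    obtain ⟨t, htT, ht1, hc⟩ := exists_fix_of_mod (P := (T : Subgroup G)) (by norm_num) y'.2 hyo (by
      rw [show Nat.card (T : Subgroup G) = 8 from o_card2 h T]
      decide)
    exact o_not_comm h ht1 (o_two_pow h T htT) (Or.inl hyo) hc
  · exact h21

theorem o_N2 (h : Nat.card G = 168) (T : Sylow 2 G) :
    normalizer ((T : Subgroup G) : Set G) = T := by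
  symm
  apply Subgroup.eq_of_le_of_card_ge Subgroup.le_normalizer
  have := card_normalizer_mul T
  rw [o_n2 h, h] at this
  rw [show Nat.card (T : Subgroup G) = 8 from o_card2 h T]
  omega

theorem o_noncomm (h : Nat.card G = 168) (T : Sylow 2 G) :
    ¬ ∀ a ∈ (T : Subgroup G), ∀ b ∈ (T : Subgroup G), a * b = b * a := by
  intro hc
  have hne : (T : Subgroup G) ≠ ⊥ := by
    intro hb
    have h1 := o_card2 h T
    rw [show Nat.card (T : Subgroup G) = Nat.card (⊥ : Subgroup G) by rw [hb], Subgroup.card_bot] at h1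
    omega
  apply relIndex_ne_one (o_hnc h) T hne
  apply Subgroup.relIndex_eq_one.2
  rw [o_N2 h T]
  intro a ha
  rw [mem_centralizer_iff]
  intro b hb
  exact hc b hb a ha

/-- The centralizer of a nonidentity `2`-element is a `2`-group contained in... -/
theorem o_cent_two (h : Nat.card G = 168) {z : G} (hz1 : z ≠ 1) {k : ℕ} (hz : z ^ (2 ^ k) = 1) :
    Nat.card (centralizer ({z} : Set G)) ∣ 8 := by
  have hd : Nat.card (centralizer ({z} : Set G)) ∣ 168 := h ▸ Subgroup.card_subgroup_dvd_card _
  have h3 : ¬ 3 ∣ Nat.card (centralizer ({z} : Set G)) := by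
    intro hd3
    obtain ⟨y, hy⟩ := exists_prime_orderOf_dvd_card' (G := centralizer ({z} : Set G)) 3 hd3
    have hyo : orderOf (y : G) = 3 := by rwa [Subgroup.orderOf_coe]
    exact o_not_comm h hz1 hz (Or.inl hyo) ((mem_centralizer_iff.1 y.2) z rfl).symm
  have h7 : ¬ 7 ∣ Nat.card (centralizer ({z} : Set G)) := by
    intro hd7
    obtain ⟨y, hy⟩ := exists_prime_orderOf_dvd_card' (G := centralizer ({z} : Set G)) 7 hd7
    have hyo : orderOf (y : G) = 7 := by rwa [Subgroup.orderOf_coe]
    exact o_not_comm h hz1 hz (Or.inr hyo) ((mem_centralizer_iff.1 y.2) z rfl).symm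
  generalize Nat.card (centralizer ({z} : Set G)) = c at *
  have := Nat.le_of_dvd (by norm_num) hd
  interval_cases c <;> omega

/-- A central element of a Sylow `2`-subgroup has this Sylow subgroup as centralizer. -/
theorem o_cent_central (h : Nat.card G = 168) (T : Sylow 2 G) {z : G} (hzT : z ∈ (T : Subgroup G))
    (hz1 : z ≠ 1) (hc : ∀ t ∈ (T : Subgroup G), t * z = z * t) :
    centralizer ({z} : Set G) = T := by
  symm
  apply Subgroup.eq_of_le_of_card_ge
  · intro t ht
    rw [mem_centralizer_iff]
    intro w hw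
    have hw' : w = z := hw
    rw [hw']
    exact (hc t ht).symm
  · rw [show Nat.card (T : Subgroup G) = 8 from o_card2 h T]
    exact Nat.le_of_dvd (by norm_num) (o_cent_two h hz1 (o_two_pow h T hzT))

/-- Element orders. -/
theorem o_orders (h : Nat.card G = 168) (g : G) :
    orderOf g = 1 ∨ orderOf g = 2 ∨ orderOf g = 3 ∨ orderOf g = 4 ∨ orderOf g = 7 := by
  have hd : orderOf g ∣ 168 := h ▸ orderOf_dvd_natCard g
  have hpos : 0 < orderOf g := orderOf_pos g
  have hcomm : ∀ d : ℕ, g ∈ centralizer ({g ^ d} : Set G) := by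
    intro d
    rw [mem_centralizer_iff]
    intro w hw
    have hw' : w = g ^ d := hw
    rw [hw']
    exact (Commute.pow_self g d).eq
  by_cases h3 : 3 ∣ orderOf g
  · right; right; left
    have hx : orderOf (g ^ (orderOf g / 3)) = 3 := orderOf_pow_orderOf_div hpos.ne' h3
    have hmem := hcomm (orderOf g / 3)
    rw [o_cent3 h _ hx] at hmem
    have h1 := Subgroup.orderOf_dvd_natCard _ hmem
    rw [Nat.card_zpowers, hx] at h1
    exact Nat.dvd_antisymm h1 h3
  by_cases h7 : 7 ∣ orderOf g
  · right; right; right; right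
    have hx : orderOf (g ^ (orderOf g / 7)) = 7 := orderOf_pow_orderOf_div hpos.ne' h7
    have hmem := hcomm (orderOf g / 7)
    rw [o_cent7 h _ hx] at hmem
    have h1 := Subgroup.orderOf_dvd_natCard _ hmem
    rw [Nat.card_zpowers, hx] at h1
    exact Nat.dvd_antisymm h1 h7
  have hcases : orderOf g = 1 ∨ orderOf g = 2 ∨ orderOf g = 4 ∨ orderOf g = 8 := by
    generalize orderOf g = c at *
    have := Nat.le_of_dvd (by norm_num) hd
    interval_cases c <;> omega
  rcases hcases with h1 | h1 | h1 | h1
  · exact Or.inl h1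
  · exact Or.inr (Or.inl h1)
  · exact Or.inr (Or.inr (Or.inr (Or.inl h1)))
  · exfalso
    -- cyclic Sylow subgroup
    have hpg : IsPGroup 2 (zpowers g) := by
      rw [IsPGroup.iff_card, Nat.card_zpowers, h1]
      exact ⟨3, by norm_num⟩
    obtain ⟨T, hT⟩ := hpg.exists_le_sylow
    have hTeq : zpowers g = (T : Subgroup G) := by
      apply Subgroup.eq_of_le_of_card_ge hT
      rw [show Nat.card (T : Subgroup G) = 8 from o_card2 h T, Nat.card_zpowers, h1]
    apply o_noncomm h T
    rw [← hTeq]
    rintro _ ⟨a, rfl⟩ _ ⟨b, rfl⟩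
    exact (Commute.zpow_zpow_self g a b).eq

/-- There are at least two involutions in a Sylow `2`-subgroup. -/
theorem o_two_involutions (h : Nat.card G = 168) (T : Sylow 2 G) :
    ∃ x ∈ (T : Subgroup G), ∃ y ∈ (T : Subgroup G), x * x = 1 ∧ y * y = 1 ∧ x ≠ 1 ∧ y ≠ 1 ∧ x ≠ y := by
  classical
  by_contra hcon
  push Not at hcon
  -- the involution of any Sylow subgroup is central in it
  have hu : ∀ R : Sylow 2 G, ∀ x ∈ (R : Subgroup G), ∀ y ∈ (R : Subgroup G), x * x = 1 → y * y = 1 →
      x ≠ 1 → y ≠ 1 → x = y := by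
    intro R x hx y hy hx2 hy2 hx1 hy1
    obtain ⟨g, hg⟩ := MulAction.exists_smul_eq G R T
    have hconj : ∀ u ∈ (R : Subgroup G), g * u * g⁻¹ ∈ (T : Subgroup G) := by
      intro u hu
      rw [← hg, Sylow.coe_subgroup_smul]
      exact Subgroup.mem_map.2 ⟨u, hu, rfl⟩
    have hsq : ∀ u : G, u * u = 1 → (g * u * g⁻¹) * (g * u * g⁻¹) = 1 := by
      intro u hu
      have : (g * u * g⁻¹) * (g * u * g⁻¹) = g * (u * u) * g⁻¹ := by group
      rw [this, hu]
      simp
    have hne : ∀ u : G, u ≠ 1 → g * u * g⁻¹ ≠ 1 := by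
      intro u hu h1
      apply hu
      have h2 : g * u = g := by
        have := congrArg (· * g) h1
        simpa using this
      simpa using h2
    have := hcon _ (hconj x hx) _ (hconj y hy) (hsq x hx2) (hsq y hy2) (hne x hx1) (hne y hy1)
    have h3 : g * x = g * y := by
      have h4 := congrArg (· * g) this
      simpa using h4
    exact mul_left_cancel h3
  have hcentral : ∀ R : Sylow 2 G, ∀ u ∈ (R : Subgroup G), u * u = 1 → u ≠ 1 →
      centralizer ({u} : Set G) = R := by
    intro R u huR hu2 hu1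
    apply o_cent_central h R huR hu1
    intro t ht
    have h1 : t * u * t⁻¹ ∈ (R : Subgroup G) := mul_mem (mul_mem ht huR) (inv_mem ht)
    have h2 : (t * u * t⁻¹) * (t * u * t⁻¹) = 1 := by
      have : (t * u * t⁻¹) * (t * u * t⁻¹) = t * (u * u) * t⁻¹ := by group
      rw [this, hu2]
      simp
    have h3 : t * u * t⁻¹ ≠ 1 := by
      intro h4
      apply hu1
      have h5 : t * u = t := by
        have := congrArg (· * t) h4
        simpa using this
      simpa using h5
    have h4 := hu R _ h1 _ huR h2 hu2 h3 hu1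
    calc t * u = (t * u * t⁻¹) * t := by group
      _ = u * t := by rw [h4]
  -- triviality of intersections
  have hinter : ∀ R : Sylow 2 G, R ≠ T → ∀ v ∈ (T : Subgroup G), v ∈ (R : Subgroup G) → v = 1 := by
    intro R hRT v hvT hvR
    by_contra hv1
    have hv8 := o_two_pow h T hvT
    have hex : ∃ r, v ^ (2 ^ r) = 1 := ⟨3, hv8⟩
    let r₀ := Nat.find hex
    have h₀ : v ^ (2 ^ r₀) = 1 := Nat.find_spec hex
    have hr₀ : r₀ ≠ 0 := by
      intro h0
      rw [h0] at h₀
      simp at h₀
      exact hv1 h₀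
    have hne : v ^ (2 ^ (r₀ - 1)) ≠ 1 := Nat.find_min hex (by omega : r₀ - 1 < r₀)
    have hsq : v ^ (2 ^ (r₀ - 1)) * v ^ (2 ^ (r₀ - 1)) = 1 := by
      rw [← pow_add, ← two_mul, ← pow_succ', Nat.sub_add_cancel (Nat.pos_of_ne_zero hr₀)]
      exact h₀
    have h1 := hcentral T _ (pow_mem hvT _) hsq hne
    have h2 := hcentral R _ (pow_mem hvR _) hsq hne
    apply hRT
    exact Sylow.ext (h2.symm.trans h1)
  let X : SubMulAction (T : Subgroup G) (Sylow 2 G) :=
    { carrier := {R | R ≠ T}
      smul_mem' := by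
        intro c R hR hc
        apply hR
        have h3 : (c : G)⁻¹ • T = T := Sylow.smul_eq_iff_mem_normalizer.2 (Subgroup.le_normalizer (inv_mem c.2))
        have h2 : (c : G) • R = T := hc
        calc R = (c : G)⁻¹ • ((c : G) • R) := (inv_smul_smul _ _).symm
          _ = (c : G)⁻¹ • T := by rw [h2]
          _ = T := h3 }
  have hXcard : Nat.card X = 20 := by
    have h1 : Nat.card X = ({T}ᶜ : Set (Sylow 2 G)).ncard := by
      rw [← Nat.card_coe_set_eq]
      rfl
    rw [h1, Set.ncard_compl, o_n2 h, Set.ncard_singleton]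
  have hdvd : 8 ∣ Nat.card X := by
    apply dvd_card_of_dvd_orbits (P := (T : Subgroup G))
    intro z
    have h1 := card_orbit_mul_card_stabilizer (P := (T : Subgroup G)) z
    have h2 : stabilizer (T : Subgroup G) z = ⊥ := by
      rw [eq_bot_iff]
      intro u hu
      have hfix : (u : G) • (z : Sylow 2 G) = z := congrArg Subtype.val hu
      have huz := mem_of_mem_sylow_of_smul_eq u.2 hfix
      rw [Subgroup.mem_bot]
      exact Subtype.ext (hinter z z.2 u u.2 huz)
    rw [h2, Subgroup.card_bot, mul_one] at h1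
    rw [h1]
    exact dvd_of_eq (o_card2 h T).symm
  rw [hXcard] at hdvd
  omega

/-- Nonabelian groups of order eight. -/
theorem nonabelian8 {S : Type*} [Group S] [Finite S] (hS : Nat.card S = 8) (hnc : ¬ ∀ a b : S, a * b = b * a) :
    ∃ a : S, orderOf a = 4 ∧ ∀ w : S, w ∉ zpowers a → w * a * w⁻¹ = a⁻¹ := by
  classical
  have h1 : ∃ a : S, orderOf a = 4 := by
    by_contra hcon
    push Not at hcon
    apply hnc
    have hsq : ∀ w : S, w * w = 1 := by
      intro w
      have hd : orderOf w ∣ 8 := hS ▸ orderOf_dvd_natCard w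
      have hcases : orderOf w ∣ 2 ∨ orderOf w = 8 := by
        have h4 := hcon w
        generalize orderOf w = c at *
        have := Nat.le_of_dvd (by norm_num) hd
        interval_cases c <;> omega
      rcases hcases with h | h
      · rw [← sq]
        exact orderOf_dvd_iff_pow_eq_one.1 h
      · exfalso
        apply hnc
        have htop : zpowers w = ⊤ := by
          apply Subgroup.eq_top_of_card_eq
          rw [Nat.card_zpowers, h, hS]
        intro a b
        have ha : a ∈ zpowers w := by rw [htop]; trivial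
        have hb : b ∈ zpowers w := by rw [htop]; trivial
        obtain ⟨i, rfl⟩ := ha
        obtain ⟨j, rfl⟩ := hb
        exact (Commute.zpow_zpow_self w i j).eq
    intro a b
    have h2 := hsq (a * b)
    have h3 : a * b = b⁻¹ * a⁻¹ := by
      rw [eq_comm, ← mul_inv_rev, inv_eq_iff_mul_eq_one]
      exact h2
    have h4 : a⁻¹ = a := inv_eq_of_mul_eq_one_left (hsq a)
    have h5 : b⁻¹ = b := inv_eq_of_mul_eq_one_left (hsq b)
    rw [h3, h4, h5]
  obtain ⟨a, ha⟩ := h1
  refine ⟨a, ha, ?_⟩
  intro w hw
  have hidx : (zpowers a).index = 2 := by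
    have := (zpowers a).card_mul_index
    rw [Nat.card_zpowers, ha, hS] at this
    omega
  haveI hnorm : (zpowers a).Normal := Subgroup.normal_of_index_eq_two hidx
  have hmem : w * a * w⁻¹ ∈ zpowers a := hnorm.conj_mem a (mem_zpowers a) w
  obtain ⟨k, hk4, hk⟩ : ∃ k < 4, a ^ k = w * a * w⁻¹ := by
    rw [mem_zpowers_iff_mem_range_orderOf, ha] at hmem
    simpa using hmem
  have hordconj : orderOf (w * a * w⁻¹) = 4 := by rw [orderOf_conj', ha]
  have ha4 : a ^ 4 = 1 := by rw [← ha]; exact pow_orderOf_eq_one a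
  interval_cases k
  · exfalso
    rw [← hk, pow_zero, orderOf_one] at hordconj
    omega
  · -- commuting case
    exfalso
    apply hnc
    have hcw : Commute w a := by
      show w * a = a * w
      rw [pow_one] at hk
      calc w * a = (w * a * w⁻¹) * w := by group
        _ = a * w := by rw [← hk]
    have hform : ∀ x : S, ∃ i : ℤ, x = a ^ i ∨ x = w * a ^ i := by
      intro x
      by_cases hx : x ∈ zpowers a
      · obtain ⟨i, rfl⟩ := hx
        exact ⟨i, Or.inl rfl⟩
      · have h1 : w⁻¹ * x ∈ zpowers a := by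
          rw [Subgroup.mul_mem_iff_of_index_two hidx]
          constructor
          · intro h2
            exact absurd ((inv_mem_iff).1 h2) hw
          · intro h2
            exact absurd h2 hx
        obtain ⟨i, hi⟩ := h1
        refine ⟨i, Or.inr ?_⟩
        have h3 : a ^ i = w⁻¹ * x := hi
        rw [h3]
        group
    intro x y
    obtain ⟨i, hi⟩ := hform x
    obtain ⟨j, hj⟩ := hform y
    have hww : Commute w w := Commute.refl w
    have hzz : Commute (a ^ i) (a ^ j) := Commute.zpow_zpow_self a i j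
    have hwj : Commute w (a ^ j) := hcw.zpow_right j
    have hwi : Commute w (a ^ i) := hcw.zpow_right i
    rcases hi with rfl | rfl <;> rcases hj with rfl | rfl
    · exact hzz.eq
    · exact (Commute.mul_right hwi.symm hzz).eq
    · exact (Commute.mul_left hwj hzz).eq
    · exact (Commute.mul_left (Commute.mul_right hww hwj) (Commute.mul_right hwi.symm hzz)).eq
  · exfalso
    rw [← hk] at hordconj
    have h3 : (a ^ 2) ^ 2 = 1 := by
      rw [← pow_mul]
      exact ha4
    have h4 := orderOf_dvd_of_pow_eq_one h3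
    rw [hordconj] at h4
    omega
  · rw [← hk]
    rw [eq_inv_iff_mul_eq_one, ← pow_succ]
    exact ha4

/-- The structure of a Sylow `2`-subgroup inside itself. -/
theorem o_T_data (h : Nat.card G = 168) (T : Sylow 2 G) :
    ∃ (a b : (T : Subgroup G)), orderOf a = 4 ∧ b * b = 1 ∧ b * a * b⁻¹ = a⁻¹ ∧ b ∉ zpowers a ∧
      Nonempty ((T : Subgroup G) ≃* DihedralGroup 4) ∧ (∀ w : (T : Subgroup G), w ∉ zpowers a → w * a * w⁻¹ = a⁻¹) := by
  classical
  have hcard : Nat.card (T : Subgroup G) = 8 := o_card2 h T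
  have hnc : ¬ ∀ a b : (T : Subgroup G), a * b = b * a := by
    intro hc
    apply o_noncomm h T
    intro a ha b hb
    exact congrArg Subtype.val (hc ⟨a, ha⟩ ⟨b, hb⟩)
  obtain ⟨a, ha, hw⟩ := nonabelian8 hcard hnc
  have ha4 : a ^ 4 = 1 := by rw [← ha]; exact pow_orderOf_eq_one a
  -- an involution outside `⟨a⟩`
  obtain ⟨b, hb2, hbA⟩ : ∃ b : (T : Subgroup G), b * b = 1 ∧ b ∉ zpowers a := by
    obtain ⟨x, hx, y, hy, hx2, hy2, hx1, hy1, hxy⟩ := o_two_involutions h T
    have hkey : ∀ u : (T : Subgroup G), u * u = 1 → u ≠ 1 → u ∈ zpowers a → u = a ^ 2 := by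
      intro u hu2 hu1 huA
      obtain ⟨k, hk4, hk⟩ : ∃ k < 4, a ^ k = u := by
        rw [mem_zpowers_iff_mem_range_orderOf, ha] at huA
        simpa using huA
      interval_cases k
      · exfalso
        apply hu1
        rw [← hk, pow_zero]
      · exfalso
        rw [← hk, pow_one] at hu2
        have h3 : a ^ 2 = 1 := by rw [sq]; exact hu2
        have h4 := orderOf_dvd_of_pow_eq_one h3
        rw [ha] at h4
        omega
      · exact hk.symm
      · exfalso
        rw [← hk, ← pow_add] at hu2
        have h4 := orderOf_dvd_of_pow_eq_one hu2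
        rw [ha] at h4
        omega
    by_cases hxA : (⟨x, hx⟩ : (T : Subgroup G)) ∈ zpowers a
    · by_cases hyA : (⟨y, hy⟩ : (T : Subgroup G)) ∈ zpowers a
      · exfalso
        have h3 := hkey ⟨x, hx⟩ (Subtype.ext hx2) (fun h => hx1 (congrArg Subtype.val h)) hxA
        have h4 := hkey ⟨y, hy⟩ (Subtype.ext hy2) (fun h => hy1 (congrArg Subtype.val h)) hyA
        apply hxy
        exact congrArg Subtype.val (h3.trans h4.symm)
      · exact ⟨⟨y, hy⟩, Subtype.ext hy2, hyA⟩
    · exact ⟨⟨x, hx⟩, Subtype.ext hx2, hxA⟩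
  have hrel := hw b hbA
  exact ⟨a, b, ha, hb2, hrel, hbA,
    Cfsg.Agent.H15.dihedral_of a b 4 (by norm_num) ha hb2 hrel (by rw [hcard]) hbA, hw⟩

/-- Elements of `T`. -/
theorem o_T_elements (h : Nat.card G = 168) (T : Sylow 2 G) :
    ∃ a ∈ (T : Subgroup G), ∃ b ∈ (T : Subgroup G), orderOf a = 4 ∧ b * b = 1 ∧ b * a * b⁻¹ = a⁻¹ ∧ b ∉ zpowers a ∧
      centralizer ({a * a} : Set G) = T ∧
      (∀ x ∈ (T : Subgroup G), orderOf x = 4 ↔ x = a ∨ x = a⁻¹) ∧
      (∀ x ∈ (T : Subgroup G), x ∉ zpowers a → x * x = 1) ∧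
      (∀ x ∈ (T : Subgroup G), x ∉ zpowers a → x * a * x⁻¹ = a⁻¹) := by
  classical
  obtain ⟨a, b, ha, hb2, hrel, hbA, -, hw⟩ := o_T_data h T
  have hcard : Nat.card (T : Subgroup G) = 8 := o_card2 h T
  have ha4 : a ^ 4 = 1 := by rw [← ha]; exact pow_orderOf_eq_one a
  have hao : orderOf (a : G) = 4 := by rwa [Subgroup.orderOf_coe]
  have hidx : (zpowers a).index = 2 := by
    have := (zpowers a).card_mul_index
    rw [Nat.card_zpowers, ha, hcard] at this
    omega
  have hrelb : ∀ i : ℤ, b * a ^ i * b⁻¹ = (a ^ i)⁻¹ := by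
    intro i
    have h1 : b * a ^ i * b⁻¹ = (b * a * b⁻¹) ^ i := by
      rw [conj_zpow]
    rw [h1, hrel, inv_zpow]
  have hinv : ∀ x : (T : Subgroup G), x ∉ zpowers a → x * x = 1 := by
    intro x hx
    have h1 : b⁻¹ * x ∈ zpowers a := by
      rw [Subgroup.mul_mem_iff_of_index_two hidx]
      constructor
      · intro h2
        exact absurd ((inv_mem_iff).1 h2) hbA
      · intro h2
        exact absurd h2 hx
    obtain ⟨i, hi⟩ := h1
    have h3 : a ^ i = b⁻¹ * x := hi
    have h4 : x = b * a ^ i := by rw [h3]; group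
    rw [h4]
    calc b * a ^ i * (b * a ^ i) = (b * a ^ i * b⁻¹) * (b * b) * a ^ i := by group
      _ = 1 := by rw [hrelb, hb2]; group
  have hzc : ∀ t : (T : Subgroup G), t * (a * a) = (a * a) * t := by
    intro t
    by_cases ht : t ∈ zpowers a
    · obtain ⟨i, rfl⟩ := ht
      have h1 : Commute (a ^ i) (a ^ (1 : ℤ)) := Commute.zpow_zpow_self a i 1
      rw [zpow_one] at h1
      exact (Commute.mul_right h1 h1).eq
    · have h1 := hw t ht
      have h2 : t * (a * a) * t⁻¹ = a⁻¹ * a⁻¹ := by
        calc t * (a * a) * t⁻¹ = (t * a * t⁻¹) * (t * a * t⁻¹) := by group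
          _ = a⁻¹ * a⁻¹ := by rw [h1]
      have h3 : a⁻¹ * a⁻¹ = a * a := inv_mul_inv_of_four a ha4
      rw [h3] at h2
      calc t * (a * a) = (t * (a * a) * t⁻¹) * t := by group
        _ = a * a * t := by rw [h2]
  refine ⟨a, a.2, b, b.2, hao, congrArg Subtype.val hb2, congrArg Subtype.val hrel,
    ?_, ?_, ?_, ?_, ?_⟩
  · intro hmem
    apply hbA
    obtain ⟨i, hi⟩ := hmem
    refine ⟨i, Subtype.ext ?_⟩
    have hi' : (a : G) ^ i = b := hi
    show (((a ^ i : (T : Subgroup G)) : G)) = b
    rw [Subgroup.coe_zpow, hi']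
  · apply o_cent_central h T (mul_mem a.2 a.2)
    · intro h1
      have h2 : (a : G) ^ 2 = 1 := by rw [sq]; exact h1
      have h3 := orderOf_dvd_of_pow_eq_one h2
      rw [hao] at h3
      omega
    · intro t ht
      exact congrArg Subtype.val (hzc ⟨t, ht⟩)
  · intro x hx
    constructor
    · intro hxo
      by_cases hxA : (⟨x, hx⟩ : (T : Subgroup G)) ∈ zpowers a
      · obtain ⟨k, hk4, hk⟩ : ∃ k < 4, a ^ k = ⟨x, hx⟩ := by
          rw [mem_zpowers_iff_mem_range_orderOf, ha] at hxA
          simpa using hxA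
        have hkx : (a : G) ^ k = x := congrArg Subtype.val hk
        interval_cases k
        · exfalso
          rw [← hkx, pow_zero, orderOf_one] at hxo
          omega
        · left
          rw [← hkx, pow_one]
        · exfalso
          rw [← hkx] at hxo
          have hao4 : (a : G) ^ 4 = 1 := by rw [← hao]; exact pow_orderOf_eq_one _
          have h3 : ((a : G) ^ 2) ^ 2 = 1 := by
            rw [← pow_mul]
            exact hao4
          have h4 := orderOf_dvd_of_pow_eq_one h3
          rw [hxo] at h4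
          omega
        · right
          have hao4 : (a : G) ^ 4 = 1 := by rw [← hao]; exact pow_orderOf_eq_one _
          rw [← hkx, eq_inv_iff_mul_eq_one, ← pow_succ]
          exact hao4
      · exfalso
        have h1 := hinv ⟨x, hx⟩ hxA
        have h2 : x ^ 2 = 1 := by rw [sq]; exact congrArg Subtype.val h1
        have h3 := orderOf_dvd_of_pow_eq_one h2
        rw [hxo] at h3
        omega
    · rintro (rfl | rfl)
      · exact hao
      · rw [orderOf_inv, hao]
  · intro x hx hxA
    have hxA' : (⟨x, hx⟩ : (T : Subgroup G)) ∉ zpowers a := by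
      intro hmem
      apply hxA
      obtain ⟨i, hi⟩ := hmem
      refine ⟨i, ?_⟩
      have := congrArg Subtype.val hi
      simpa using this
    exact congrArg Subtype.val (hinv ⟨x, hx⟩ hxA')
  · intro x hx hxA
    have hxA' : (⟨x, hx⟩ : (T : Subgroup G)) ∉ zpowers a := by
      intro hmem
      apply hxA
      obtain ⟨i, hi⟩ := hmem
      refine ⟨i, ?_⟩
      have := congrArg Subtype.val hi
      simpa using this
    exact congrArg Subtype.val (hw ⟨x, hx⟩ hxA')

theorem o_count3 (h : Nat.card G = 168) : Nat.card {g : G // orderOf g = 3} = 56 := by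
  rw [card_orderOf_eq_prime (o_card3 h), o_n3 h]

theorem o_count7 (h : Nat.card G = 168) : Nat.card {g : G // orderOf g = 7} = 48 := by
  rw [card_orderOf_eq_prime (o_card7 h), o_n7 h]

/-- Order four elements determine their Sylow subgroup. -/
theorem o_order4_unique (h : Nat.card G = 168) (R R' : Sylow 2 G) {x : G} (hx : x ∈ (R : Subgroup G))
    (hx' : x ∈ (R' : Subgroup G)) (ho : orderOf x = 4) : R = R' := by
  have key : ∀ S : Sylow 2 G, x ∈ (S : Subgroup G) → centralizer ({x * x} : Set G) = S := by
    intro S hS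
    obtain ⟨a, ha, b, hb, hao, hb2, hrel, hbA, hC, hall, -, -⟩ := o_T_elements h S
    rcases (hall x hS).1 ho with rfl | rfl
    · exact hC
    · rw [← hC]
      have h4 : a ^ 4 = 1 := by rw [← hao]; exact pow_orderOf_eq_one a
      rw [inv_mul_inv_of_four a h4]
  exact Sylow.ext ((key R hx).symm.trans (key R' hx'))

theorem o_count4 (h : Nat.card G = 168) : Nat.card {g : G // orderOf g = 4} = 42 := by
  classical
  haveI : Fintype (Sylow 2 G) := Fintype.ofFinite _
  have hex : ∀ g : {g : G // orderOf g = 4}, ∃ R : Sylow 2 G, g.1 ∈ (R : Subgroup G) := by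
    intro g
    have hpg : IsPGroup 2 (zpowers g.1) := by
      rw [IsPGroup.iff_card, Nat.card_zpowers, g.2]
      exact ⟨2, by norm_num⟩
    obtain ⟨R, hR⟩ := hpg.exists_le_sylow
    exact ⟨R, hR (mem_zpowers _)⟩
  choose f hf using hex
  have hfib : ∀ R : Sylow 2 G, Nat.card {g : {g : G // orderOf g = 4} // f g = R} = 2 := by
    intro R
    obtain ⟨a, ha, b, hb, hao, hb2, hrel, hbA, hC, hall, -, -⟩ := o_T_elements h R
    have hane : a ≠ a⁻¹ := by
      intro h1
      have h2 : a ^ 2 = 1 := by
        rw [sq]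
        nth_rewrite 2 [h1]
        simp
      have h3 := orderOf_dvd_of_pow_eq_one h2
      rw [hao] at h3
      omega
    have hmem : ∀ g : {g : G // orderOf g = 4}, f g = R ↔ g.1 = a ∨ g.1 = a⁻¹ := by
      intro g
      constructor
      · intro h1
        have h2 := hf g
        rw [h1] at h2
        exact (hall g.1 h2).1 g.2
      · intro h1
        have h2 : g.1 ∈ (R : Subgroup G) := by
          rcases h1 with h1 | h1 <;> rw [h1]
          · exact ha
          · exact inv_mem ha
        exact o_order4_unique h _ _ (hf g) h2 g.2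
    have hao' : orderOf a⁻¹ = 4 := by rw [orderOf_inv, hao]
    let e : {g : {g : G // orderOf g = 4} // f g = R} ≃ ({a, a⁻¹} : Finset G) :=
      { toFun := fun g => ⟨g.1.1, by
          rcases (hmem g.1).1 g.2 with h1 | h1 <;> simp [h1]⟩
        invFun := fun x => ⟨⟨x.1, by
            have := x.2
            simp only [Finset.mem_insert, Finset.mem_singleton] at this
            rcases this with h1 | h1 <;> rw [h1]
            · exact hao
            · exact hao'⟩, by
            rw [hmem]
            exact (Finset.mem_insert.1 x.2).imp id Finset.mem_singleton.1⟩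
        left_inv := fun g => rfl
        right_inv := fun x => rfl }
    rw [Nat.card_congr e, Nat.card_eq_fintype_card, Fintype.card_coe, Finset.card_pair hane]
  rw [Nat.card_congr (Equiv.sigmaFiberEquiv f).symm, Nat.card_sigma]
  simp only [hfib]
  rw [Finset.sum_const, Finset.card_univ, smul_eq_mul, ← Nat.card_eq_fintype_card, o_n2 h]

/-- Count of involutions. -/
theorem o_count2 (h : Nat.card G = 168) : Nat.card {g : G // orderOf g = 2} = 21 := by
  classical
  haveI := Fintype.ofFinite G
  have hpart : (Finset.univ : Finset G).card = ∑ d ∈ ({1, 2, 3, 4, 7} : Finset ℕ),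
      (Finset.univ.filter (fun g : G => orderOf g = d)).card := by
    apply Finset.card_eq_sum_card_fiberwise
    intro g _
    have := o_orders h g
    simp only [Finset.coe_insert, Finset.coe_singleton, Set.mem_insert_iff, Set.mem_singleton_iff]
    exact this
  have hc : ∀ d : ℕ, (Finset.univ.filter (fun g : G => orderOf g = d)).card = Nat.card {g : G // orderOf g = d} := by
    intro d
    rw [Nat.card_eq_fintype_card, Fintype.card_subtype]
  have h1 : Nat.card {g : G // orderOf g = 1} = 1 := by
    rw [Nat.card_eq_one_iff_unique]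
    refine ⟨⟨fun x y => Subtype.ext ?_⟩, ⟨⟨1, orderOf_one⟩⟩⟩
    rw [orderOf_eq_one_iff.1 x.2, orderOf_eq_one_iff.1 y.2]
  have hsum : ∑ d ∈ ({1, 2, 3, 4, 7} : Finset ℕ), (Finset.univ.filter (fun g : G => orderOf g = d)).card =
      (Finset.univ.filter (fun g : G => orderOf g = 1)).card + ((Finset.univ.filter (fun g : G => orderOf g = 2)).card +
      ((Finset.univ.filter (fun g : G => orderOf g = 3)).card + ((Finset.univ.filter (fun g : G => orderOf g = 4)).card +
      (Finset.univ.filter (fun g : G => orderOf g = 7)).card))) := by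
    rw [Finset.sum_insert (by decide), Finset.sum_insert (by decide), Finset.sum_insert (by decide),
      Finset.sum_insert (by decide), Finset.sum_singleton]
  rw [hsum, hc, hc, hc, hc, hc, h1, o_count3 h, o_count4 h, o_count7 h, Finset.card_univ,
    ← Nat.card_eq_fintype_card, h] at hpart
  omega

/-- Recognising all elements of a given kind as one conjugacy class. -/
theorem all_conj_of_card {Pr : G → Prop} {x : G} (hx : Pr x) (hconj : ∀ g y, Pr y → Pr (g * y * g⁻¹))
    (hcard : Nat.card {g : G // Pr g} = Nat.card (ConjClasses.mk x).carrier) :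
    ∀ s t, Pr s → Pr t → IsConj s t := by
  classical
  haveI := Fintype.ofFinite G
  -- inclusion of the class
  let f : (ConjClasses.mk x).carrier → {g : G // Pr g} := fun y => ⟨y.1, by
    have h3 := y.2
    rw [ConjClasses.mem_carrier_iff_mk_eq, ConjClasses.mk_eq_mk_iff_isConj] at h3
    obtain ⟨c, hc⟩ := isConj_iff.1 h3.symm
    rw [← hc]
    exact hconj c x hx⟩
  have hinj : Function.Injective f := by
    intro a b hab
    exact Subtype.ext (congrArg (fun z : {g : G // Pr g} => z.1) hab)
  have hbij : Function.Bijective f := (Nat.bijective_iff_injective_and_card f).2 ⟨hinj, hcard.symm⟩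
  have hall : ∀ s, Pr s → IsConj x s := by
    intro s hs
    obtain ⟨y, hy⟩ := hbij.2 ⟨s, hs⟩
    have h1 : y.1 = s := congrArg (fun z : {g : G // Pr g} => z.1) hy
    have h3 := y.2
    rw [ConjClasses.mem_carrier_iff_mk_eq, ConjClasses.mk_eq_mk_iff_isConj, h1] at h3
    exact h3.symm
  intro s t hs ht
  exact (hall s hs).symm.trans (hall t ht)

theorem o_card_carrier (x : G) (n m : ℕ) (hC : Nat.card (centralizer ({x} : Set G)) = m) (hm : 0 < m)
    (hG : Nat.card G = n * m) : Nat.card (ConjClasses.mk x).carrier = n := by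
  have h1 := card_carrier_mul_centralizer' x
  rw [hC, hG] at h1
  exact Nat.eq_of_mul_eq_mul_right hm h1

/-- All involutions are conjugate. -/
theorem o_conj2 (h : Nat.card G = 168) : ∀ s t : G, orderOf s = 2 → orderOf t = 2 → IsConj s t := by
  obtain T : Sylow 2 G := default
  obtain ⟨a, ha, b, hb, hao, hb2, hrel, hbA, hC, hall, -, -⟩ := o_T_elements h T
  have hz2 : orderOf (a * a) = 2 := by
    have h1 : a * a = a ^ 2 := (sq a).symm
    rw [h1, orderOf_pow_of_dvd (by norm_num) (by rw [hao]; norm_num), hao]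
  apply all_conj_of_card (Pr := fun g : G => orderOf g = 2) hz2
  · intro g y hy
    show orderOf (g * y * g⁻¹) = 2
    rw [orderOf_conj']
    exact hy
  · rw [o_count2 h]
    symm
    apply o_card_carrier _ 21 8
    · rw [hC]
      exact o_card2 h T
    · norm_num
    · rw [h]

theorem o_conj3 (h : Nat.card G = 168) : ∀ s t : G, orderOf s = 3 → orderOf t = 3 → IsConj s t := by
  intro s t hs ht
  revert s t
  suffices hkey : ∀ x : G, orderOf x = 3 → ∀ s t : G, orderOf s = 3 → orderOf t = 3 → IsConj s t by
    intro s t hs ht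
    exact hkey s hs s t hs ht
  intro x hx
  apply all_conj_of_card (Pr := fun g : G => orderOf g = 3) hx
  · intro g y hy
    show orderOf (g * y * g⁻¹) = 3
    rw [orderOf_conj']
    exact hy
  · rw [o_count3 h]
    symm
    apply o_card_carrier _ 56 3
    · rw [o_cent3 h x hx, Nat.card_zpowers, hx]
    · norm_num
    · rw [h]

theorem o_conj4 (h : Nat.card G = 168) : ∀ s t : G, orderOf s = 4 → orderOf t = 4 → IsConj s t := by
  obtain T : Sylow 2 G := default
  obtain ⟨a, ha, b, hb, hao, hb2, hrel, hbA, hC, hall, -, hw⟩ := o_T_elements h T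
  apply all_conj_of_card (Pr := fun g : G => orderOf g = 4) hao
  · intro g y hy
    show orderOf (g * y * g⁻¹) = 4
    rw [orderOf_conj']
    exact hy
  · rw [o_count4 h]
    symm
    apply o_card_carrier _ 42 4
    · have hCa : centralizer ({a} : Set G) = zpowers a := by
        symm
        apply le_antisymm
        · rw [Subgroup.zpowers_le, mem_centralizer_iff]
          intro w hw'
          have hw'' : w = a := hw'
          rw [hw'']
        · intro c hc
          have hca : a * c = c * a := (mem_centralizer_iff.1 hc) a rfl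
          have hcT : c ∈ (T : Subgroup G) := by
            rw [← hC, mem_centralizer_iff]
            intro w hw'
            have hw'' : w = a * a := hw'
            rw [hw'', mul_assoc, hca, ← mul_assoc, hca, mul_assoc]
          by_contra hcA
          have h1 := hw c hcT hcA
          have h2 : c * a * c⁻¹ = a := by rw [← hca]; group
          rw [h2] at h1
          have h3 : a ^ 2 = 1 := by
            rw [sq]
            nth_rewrite 1 [h1]
            simp
          have h4 := orderOf_dvd_of_pow_eq_one h3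
          rw [hao] at h4
          omega
      rw [hCa, Nat.card_zpowers, hao]
    · norm_num
    · rw [h]

theorem o_not_conj7 (h : Nat.card G = 168) (x : G) (hx : orderOf x = 7) : ¬ IsConj x x⁻¹ := by
  intro hc
  obtain ⟨g, hg⟩ := isConj_iff.1 hc
  -- `g` normalizes `⟨x⟩`
  have hpg : IsPGroup 7 (zpowers x) := by
    rw [IsPGroup.iff_card, Nat.card_zpowers, hx]
    exact ⟨1, by simp⟩
  obtain ⟨S, hS⟩ := hpg.exists_le_sylow
  have hSeq : zpowers x = (S : Subgroup G) := by
    apply Subgroup.eq_of_le_of_card_ge hS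
    rw [show Nat.card (S : Subgroup G) = 7 from o_card7 h S, Nat.card_zpowers, hx]
  have hxinv : g⁻¹ * x * g = x⁻¹ := by
    have h1 : g⁻¹ * x⁻¹ * g = x := by rw [← hg]; group
    rw [eq_inv_iff_mul_eq_one]
    calc g⁻¹ * x * g * x = g⁻¹ * x * g * (g⁻¹ * x⁻¹ * g) := by rw [h1]
      _ = 1 := by group
  have hgN : g ∈ normalizer ((S : Subgroup G) : Set G) := by
    rw [Subgroup.mem_normalizer_iff, ← hSeq]
    intro w
    constructor
    · rintro ⟨k, rfl⟩
      show g * x ^ k * g⁻¹ ∈ zpowers x
      rw [← conj_zpow, hg]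
      exact zpow_mem (inv_mem (mem_zpowers x)) k
    · rintro ⟨k, hk⟩
      have hk' : x ^ k = g * w * g⁻¹ := hk
      have h2 : w = g⁻¹ * x ^ k * g := by rw [hk']; group
      have h3 : g⁻¹ * x ^ k * g = (g⁻¹ * x * g) ^ k := by
        have := conj_zpow (a := g⁻¹) (b := x) (i := k)
        simpa using this.symm
      rw [h2, h3, hxinv]
      exact zpow_mem (inv_mem (mem_zpowers x)) k
  have hodd : ¬ 2 ∣ orderOf g := by
    intro h2
    have h1 : orderOf g ∣ 21 := by
      rw [← o_N7 h S, ← Subgroup.orderOf_mk g hgN]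
      exact orderOf_dvd_natCard _
    have := h2.trans h1
    omega
  have hcg2 : g * g * x = x * (g * g) := by
    have h1 : g * g * x * (g⁻¹ * g⁻¹) = x := by
      calc g * g * x * (g⁻¹ * g⁻¹) = g * (g * x * g⁻¹) * g⁻¹ := by group
        _ = g * x⁻¹ * g⁻¹ := by rw [hg]
        _ = (g * x * g⁻¹)⁻¹ := by group
        _ = x := by rw [hg, inv_inv]
    calc g * g * x = (g * g * x * (g⁻¹ * g⁻¹)) * (g * g) := by group
      _ = x * (g * g) := by rw [h1]
  have hcomm : Commute g x := by
    obtain ⟨m, hm⟩ : ∃ m, orderOf g + 1 = 2 * m := by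
      have h5 : orderOf g % 2 = 1 := by omega
      exact ⟨(orderOf g + 1) / 2, by omega⟩
    have h6 : g = (g * g) ^ m := by
      rw [← sq, ← pow_mul, ← hm, pow_succ, pow_orderOf_eq_one, one_mul]
    rw [h6]
    exact Commute.pow_left (show Commute (g * g) x from hcg2) m
  have h7 : g * x * g⁻¹ = x := by
    rw [hcomm.eq]
    group
  rw [h7] at hg
  have h8 : x ^ 2 = 1 := by
    rw [sq]
    nth_rewrite 1 [hg]
    simp
  have h9 := orderOf_dvd_of_pow_eq_one h8
  rw [hx] at h9
  omega

end O168

end Cfsg.Agent.H04.Small
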