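import Cfsg.Agent.Lib.H04.Small.O168
import Cfsg.Agent.S1012

/-!
# Simple groups of order 168: Klein four subgroups
-/

set_option autoImplicit false
set_option linter.style.haveILetI false
set_option linter.unusedSectionVars false
set_option linter.unusedVariables false

namespace Cfsg.Agent.H04.Small

open MulAction Subgroup Cfsg.Agent.H04

section general

variable {G : Type*} [Group G] [Finite G]

/-- Sylow subgroups in a subgroup are conjugate within it. -/
theorem sylow_conj_in_subgroup {p : ℕ} [Fact p.Prime] (M : Subgroup G) (P Q : Sylow p G)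
    (hP : (P : Subgroup G) ≤ M) (hQ : (Q : Subgroup G) ≤ M) : ∃ n ∈ M, n • Q = P := by
  obtain ⟨n, hn⟩ := MulAction.exists_smul_eq M (Q.subtype hQ) (P.subtype hP)
  refine ⟨n, n.2, ?_⟩
  have hle : (((n : G) • Q : Sylow p G) : Subgroup G) ≤ P := by
    rw [Sylow.coe_subgroup_smul]
    rintro _ ⟨x, hx, rfl⟩
    have hxM : x ∈ M := hQ hx
    have h1 : (⟨x, hxM⟩ : M) ∈ ((Q.subtype hQ : Sylow p M) : Subgroup M) := by
      rw [Sylow.coe_subtype]
      exact hx
    have h2 : n * (⟨x, hxM⟩ : M) * n⁻¹ ∈ ((P.subtype hP : Sylow p M) : Subgroup M) := by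
      rw [← hn, Sylow.coe_subgroup_smul]
      exact Subgroup.mem_map.2 ⟨_, h1, rfl⟩
    rw [Sylow.coe_subtype] at h2
    exact h2
  exact Sylow.ext (((n : G) • Q).is_maximal' P.isPGroup' hle).symm

/-- A Klein-four subgroup with two given elements. -/
def kl (z w : G) (hz : z * z = 1) (hw : w * w = 1) (hc : z * w = w * z) : Subgroup G where
  carrier := {1, z, w, w * z}
  one_mem' := by simp
  mul_mem' := by
    intro x y hx hy
    have e1 : z * (w * z) = w := by
      calc z * (w * z) = (z * w) * z := by group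
        _ = (w * z) * z := by rw [hc]
        _ = w * (z * z) := by group
        _ = w := by rw [hz, mul_one]
    have e2 : w * (w * z) = z := by
      calc w * (w * z) = (w * w) * z := by group
        _ = z := by rw [hw, one_mul]
    have e3 : (w * z) * z = w := by
      calc (w * z) * z = w * (z * z) := by group
        _ = w := by rw [hz, mul_one]
    have e4 : (w * z) * w = z := by
      calc (w * z) * w = w * (z * w) := by group
        _ = w * (w * z) := by rw [hc]
        _ = z := e2
    have e5 : (w * z) * (w * z) = 1 := by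
      calc (w * z) * (w * z) = ((w * z) * w) * z := by group
        _ = z * z := by rw [e4]
        _ = 1 := hz
    simp only [Set.mem_insert_iff, Set.mem_singleton_iff] at hx hy ⊢
    rcases hx with hx | hx | hx | hx <;> rcases hy with hy | hy | hy | hy <;> rw [hx, hy] <;>
      simp only [one_mul, mul_one, hz, hw, hc, e1, e2, e3, e4, e5, true_or, or_true]
  inv_mem' := by
    intro x hx
    have e5 : (w * z) * (w * z) = 1 := by
      calc (w * z) * (w * z) = w * (z * w) * z := by group
        _ = w * (w * z) * z := by rw [hc]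
        _ = (w * w) * (z * z) := by group
        _ = 1 := by rw [hw, hz, one_mul]
    simp only [Set.mem_insert_iff, Set.mem_singleton_iff] at hx ⊢
    rcases hx with hx | hx | hx | hx <;> rw [hx]
    · left; simp
    · right; left; exact inv_eq_of_mul_eq_one_left hz
    · right; right; left; exact inv_eq_of_mul_eq_one_left hw
    · right; right; right; exact inv_eq_of_mul_eq_one_left e5

theorem mem_kl {z w : G} {hz : z * z = 1} {hw : w * w = 1} {hc : z * w = w * z} {x : G} :
    x ∈ kl z w hz hw hc ↔ x = 1 ∨ x = z ∨ x = w ∨ x = w * z := Iff.rfl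

/-- Klein four recognition. -/
theorem isKleinFour_of {U : Subgroup G} (hc : Nat.card U = 4) (hsq : ∀ x ∈ U, x * x = 1) : IsKleinFour U where
  card_four := hc
  exponent_two := by
    haveI : Fact (Nat.Prime 2) := ⟨Nat.prime_two⟩
    have h1 : Monoid.exponent U ∣ 2 := Monoid.exponent_dvd_of_forall_pow_eq_one fun x => by
      apply Subtype.ext
      show (x : G) ^ 2 = 1
      rw [sq]
      exact hsq x x.2
    rcases (Nat.dvd_prime Nat.prime_two).1 h1 with h2 | h2
    · exfalso
      have h3 : Subsingleton U := Monoid.exp_eq_one_iff.1 h2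
      have h4 : Nat.card U = 1 := Nat.card_of_subsingleton (1 : U)
      omega
    · exact h2

theorem sq_of_isKleinFour {U : Subgroup G} (h : IsKleinFour U) : ∀ x ∈ U, x * x = 1 := by
  intro x hx
  have h1 : (⟨x, hx⟩ : U) ^ Monoid.exponent U = 1 := Monoid.pow_exponent_eq_one _
  rw [IsKleinFour.exponent_two, sq] at h1
  exact congrArg Subtype.val h1

theorem card_kl {z w : G} {hz : z * z = 1} {hw : w * w = 1} {hc : z * w = w * z} (hz1 : z ≠ 1) (hw1 : w ≠ 1)
    (hwz : w ≠ z) : Nat.card (kl z w hz hw hc) = 4 := by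
  classical
  have he : ((kl z w hz hw hc : Subgroup G) : Set G) = (({1, z, w, w * z} : Finset G) : Set G) := by
    ext x
    simp [mem_kl]
  have h1 : Nat.card (kl z w hz hw hc) = (({1, z, w, w * z} : Finset G) : Set G).ncard := by
    rw [← he, ← Nat.card_coe_set_eq]
    rfl
  rw [h1, Set.ncard_coe_finset]
  have h2 : w * z ≠ 1 := by
    intro h
    apply hwz
    have : w = z⁻¹ := eq_inv_of_mul_eq_one_left h
    rw [this]
    exact inv_eq_of_mul_eq_one_left hz
  have h3 : z ≠ w * z := fun h => hw1 (by simpa using h.symm)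
  have h4 : w ≠ w * z := fun h => hz1 (by simpa using h.symm)
  rw [Finset.card_insert_of_notMem, Finset.card_insert_of_notMem, Finset.card_insert_of_notMem, Finset.card_singleton]
  · simp [h4]
  · simp [hwz.symm, h3]
  · simp [hz1.symm, hw1.symm, h2.symm]

theorem kl_sq {z w : G} {hz : z * z = 1} {hw : w * w = 1} {hc : z * w = w * z} :
    ∀ x ∈ kl z w hz hw hc, x * x = 1 := by
  intro x hx
  rcases mem_kl.1 hx with rfl | rfl | rfl | rfl
  · simp
  · exact hz
  · exact hw
  · calc w * z * (w * z) = w * (z * w) * z := by group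
      _ = w * (w * z) * z := by rw [hc]
      _ = (w * w) * (z * z) := by group
      _ = 1 := by rw [hw, hz, one_mul]

/-- A third element. -/
theorem exists_mem_ne {U : Subgroup G} (hc : 3 ≤ Nat.card U) (x y : G) : ∃ w ∈ U, w ≠ x ∧ w ≠ y := by
  classical
  by_contra hcon
  push Not at hcon
  have hsub : (U : Set G) ⊆ (({x, y} : Finset G) : Set G) := by
    intro w hw
    by_cases h1 : w = x
    · simp [h1]
    · simp [hcon w hw h1]
  have h2 := Set.ncard_le_ncard hsub (Finset.finite_toSet _)
  rw [Set.ncard_coe_finset, ← Nat.card_coe_set_eq] at h2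
  have h3 : ({x, y} : Finset G).card ≤ 2 := Finset.card_le_two
  have h4 : Nat.card (U : Set G) = Nat.card U := rfl
  omega

/-- Normal `p`-subgroups of subgroups lie in the Sylow subgroups. -/
theorem le_sylow_of_normalized {p : ℕ} [Fact p.Prime] {W : Subgroup G} (hW : IsPGroup p W) (R : Sylow p G)
    (hle : (R : Subgroup G) ≤ normalizer (W : Set G)) : W ≤ R := by
  have h1 := R.isPGroup'.to_sup_of_normal_right' hW hle
  have h2 := R.is_maximal' h1 le_sup_left
  rw [← h2]
  exact le_sup_right

/-- Subgroups of index two are normalized. -/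
theorem le_normalizer_of_relIndex_two {U R : Subgroup G} (hUR : U ≤ R) (h2 : U.relIndex R = 2) :
    R ≤ normalizer (U : Set G) := by
  haveI : (U.subgroupOf R).Normal := Subgroup.normal_of_index_eq_two h2
  exact Subgroup.le_normalizer_of_normal_subgroupOf hUR

end general

section O168

variable {G : Type*} [Group G] [Finite G] [IsSimpleGroup G]

/-- Data for a Sylow `2`-subgroup. -/
structure TData (T : Subgroup G) (a b : G) : Prop where
  ha : a ∈ T
  hb : b ∈ T
  hao : orderOf a = 4
  hb2 : b * b = 1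
  hrel : b * a * b⁻¹ = a⁻¹
  hbA : b ∉ zpowers a
  hC : centralizer ({a * a} : Set G) = T
  hall : ∀ x ∈ T, orderOf x = 4 ↔ x = a ∨ x = a⁻¹
  hinv : ∀ x ∈ T, x ∉ zpowers a → x * x = 1
  hw : ∀ x ∈ T, x ∉ zpowers a → x * a * x⁻¹ = a⁻¹
  hcard : Nat.card T = 8

theorem exists_TData (h : Nat.card G = 168) (T : Sylow 2 G) : ∃ a b : G, TData (T : Subgroup G) a b := by
  obtain ⟨a, ha, b, hb, hao, hb2, hrel, hbA, hC, hall, hinv, hw⟩ := o_T_elements h T
  exact ⟨a, b, ha, hb, hao, hb2, hrel, hbA, hC, hall, hinv, hw, o_card2 h T⟩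

namespace TData

variable {T : Subgroup G} {a b : G} (d : TData T a b)
include d

theorem a4 : a ^ 4 = 1 := by rw [← d.hao]; exact pow_orderOf_eq_one a

theorem zT : a * a ∈ T := mul_mem d.ha d.ha

theorem z_comm {t : G} (ht : t ∈ T) : t * (a * a) = (a * a) * t := by
  rw [← d.hC, mem_centralizer_iff] at ht
  exact (ht _ rfl).symm

theorem z_sq : (a * a) * (a * a) = 1 := by
  have := d.a4
  calc (a * a) * (a * a) = a ^ 4 := by simp only [pow_succ, pow_zero, one_mul, mul_assoc]
    _ = 1 := this

theorem a_ne_one : a ≠ 1 := by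
  intro h
  have := d.hao
  rw [h, orderOf_one] at this
  omega

theorem z_ne_one : a * a ≠ 1 := by
  intro h
  have h2 : a ^ 2 = 1 := by rw [sq]; exact h
  have h3 := orderOf_dvd_of_pow_eq_one h2
  rw [d.hao] at h3
  omega

theorem z_mem : a * a ∈ zpowers a := mul_mem (mem_zpowers a) (mem_zpowers a)

/-- Elements of `⟨a⟩`. -/
theorem mem_A {x : G} (hx : x ∈ zpowers a) : x = 1 ∨ x = a ∨ x = a * a ∨ x = a⁻¹ := by
  classical
  obtain ⟨k, hk4, hk⟩ : ∃ k < 4, a ^ k = x := by
    rw [mem_zpowers_iff_mem_range_orderOf, d.hao] at hx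
    simpa using hx
  have h4 := d.a4
  interval_cases k
  · left; rw [← hk, pow_zero]
  · right; left; rw [← hk, pow_one]
  · right; right; left; rw [← hk, sq]
  · right; right; right
    rw [← hk, eq_inv_iff_mul_eq_one, ← pow_succ]
    exact h4

theorem inv_in_A {x : G} (hx : x ∈ zpowers a) (h2 : x * x = 1) : x = 1 ∨ x = a * a := by
  rcases d.mem_A hx with h | h | h | h
  · exact Or.inl h
  · exfalso
    rw [h] at h2
    exact d.z_ne_one h2
  · exact Or.inr h
  · exfalso
    rw [h, inv_mul_inv_of_four a d.a4] at h2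
    exact d.z_ne_one h2

theorem rel_A : (zpowers a).relIndex T = 2 := by
  have hle : zpowers a ≤ T := (Subgroup.zpowers_le).2 d.ha
  have h1 := card_eq_relIndex_mul hle
  rw [d.hcard, Nat.card_zpowers, d.hao] at h1
  omega

/-- Elements outside `⟨a⟩`. -/
theorem form {x : G} (hx : x ∈ T) (hxA : x ∉ zpowers a) :
    x = b ∨ x = b * a ∨ x = b * (a * a) ∨ x = b * a⁻¹ := by
  have hidx : ((zpowers a).subgroupOf T).index = 2 := d.rel_A
  have hmem : (⟨b, d.hb⟩ : T)⁻¹ * ⟨x, hx⟩ ∈ (zpowers a).subgroupOf T := by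
    rw [Subgroup.mul_mem_iff_of_index_two hidx]
    constructor
    · intro h2
      exact absurd ((inv_mem_iff).1 h2) d.hbA
    · intro h2
      exact absurd h2 hxA
  have h3 : b⁻¹ * x ∈ zpowers a := hmem
  have h4 : x = b * (b⁻¹ * x) := by group
  rcases d.mem_A h3 with h | h | h | h <;> rw [h] at h4
  · left; simpa using h4
  · right; left; exact h4
  · right; right; left; exact h4
  · right; right; right; exact h4

theorem bT_not (k : G) (hk : k ∈ zpowers a) : b * k ∉ zpowers a := by
  intro h
  apply d.hbA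
  have := mul_mem h (inv_mem hk)
  simpa using this

theorem ba_mem : b * a ∈ T := mul_mem d.hb d.ha

theorem ba_sq : (b * a) * (b * a) = 1 :=
  d.hinv _ d.ba_mem (d.bT_not a (mem_zpowers a))

/-- The two Klein four subgroups. -/
def V0 (d : TData T a b) : Subgroup G := kl (a * a) b d.z_sq d.hb2 (d.z_comm d.hb).symm

def V1 (d : TData T a b) : Subgroup G := kl (a * a) (b * a) d.z_sq d.ba_sq (d.z_comm d.ba_mem).symm

theorem b_ne_one : b ≠ 1 := by
  rintro rfl
  exact d.hbA (one_mem _)

theorem b_ne_z : b ≠ a * a := fun h => d.hbA (h ▸ d.z_mem)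

theorem ba_ne_one : b * a ≠ 1 := fun h => d.bT_not a (mem_zpowers a) (h ▸ one_mem _)

theorem ba_ne_z : b * a ≠ a * a := fun h => d.bT_not a (mem_zpowers a) (h ▸ d.z_mem)

theorem V0_le : d.V0 ≤ T := by
  intro x hx
  rcases mem_kl.1 hx with rfl | rfl | rfl | rfl
  · exact one_mem _
  · exact d.zT
  · exact d.hb
  · exact mul_mem d.hb d.zT

theorem V1_le : d.V1 ≤ T := by
  intro x hx
  rcases mem_kl.1 hx with rfl | rfl | rfl | rfl
  · exact one_mem _
  · exact d.zT
  · exact d.ba_mem
  · exact mul_mem d.ba_mem d.zT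

theorem V0_card : Nat.card d.V0 = 4 := card_kl d.z_ne_one d.b_ne_one d.b_ne_z

theorem V1_card : Nat.card d.V1 = 4 := card_kl d.z_ne_one d.ba_ne_one d.ba_ne_z

theorem V0_klein : IsKleinFour d.V0 := isKleinFour_of d.V0_card kl_sq

theorem V1_klein : IsKleinFour d.V1 := isKleinFour_of d.V1_card kl_sq

theorem V0_ne_V1 : d.V0 ≠ d.V1 := by
  intro h
  have hb0 : b ∈ d.V0 := mem_kl.2 (Or.inr (Or.inr (Or.inl rfl)))
  rw [h] at hb0
  rcases mem_kl.1 hb0 with h1 | h1 | h1 | h1
  · exact d.b_ne_one h1
  · exact d.b_ne_z h1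
  · exact d.a_ne_one (by simpa using h1.symm)
  · have h2 : a * (a * a) = 1 := by
      have h5 : b * (a * (a * a)) = b * 1 := by
        rw [mul_one, ← mul_assoc]
        exact h1.symm
      exact mul_left_cancel h5
    have h3 : a ^ 3 = 1 := by
      rw [← h2]
      simp only [pow_succ, pow_zero, one_mul, mul_assoc]
    have h4 := orderOf_dvd_of_pow_eq_one h3
    rw [d.hao] at h4
    omega

/-- Any Klein four subgroup of `T` contains the central involution. -/
theorem z_mem_klein {U : Subgroup G} (hUT : U ≤ T) (hU : IsKleinFour U) : a * a ∈ U := by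
  by_contra hz
  have hsq := sq_of_isKleinFour hU
  have hc : Nat.card U = 4 := hU.card_four
  -- elements of `U` other than one lie outside `⟨a⟩`
  have hout : ∀ x ∈ U, x ≠ 1 → x ∉ zpowers a := by
    intro x hx hx1 hxA
    rcases d.inv_in_A hxA (hsq x hx) with h | h
    · exact hx1 h
    · exact hz (h ▸ hx)
  obtain ⟨x, hx, hx1, -⟩ := exists_mem_ne (U := U) (by omega) 1 1
  obtain ⟨y, hy, hy1, hyx⟩ := exists_mem_ne (U := U) (by omega) 1 x
  -- `x⁻¹ y` lies in `⟨a⟩`
  have hidx : ((zpowers a).subgroupOf T).index = 2 := d.rel_A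
  have hmem : (⟨x, hUT hx⟩ : T)⁻¹ * ⟨y, hUT hy⟩ ∈ (zpowers a).subgroupOf T := by
    rw [Subgroup.mul_mem_iff_of_index_two hidx]
    constructor
    · intro h2
      exact absurd ((inv_mem_iff).1 h2) (hout x hx hx1)
    · intro h2
      exact absurd h2 (hout y hy hy1)
  have h3 : x⁻¹ * y ∈ zpowers a := hmem
  have h4 : x⁻¹ * y ∈ U := mul_mem (inv_mem hx) hy
  by_cases h5 : x⁻¹ * y = 1
  · exact hyx (inv_mul_eq_one.1 h5).symm
  · exact hout _ h4 h5 h3

/-- There are only two Klein four subgroups of `T`. -/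
theorem klein_cases {U : Subgroup G} (hUT : U ≤ T) (hU : IsKleinFour U) : U = d.V0 ∨ U = d.V1 := by
  have hz := d.z_mem_klein hUT hU
  have hsq := sq_of_isKleinFour hU
  have hc : Nat.card U = 4 := hU.card_four
  obtain ⟨w, hw, hw1, hwz⟩ := exists_mem_ne (U := U) (by omega) 1 (a * a)
  have hwA : w ∉ zpowers a := by
    intro hA
    rcases d.inv_in_A hA (hsq w hw) with h | h
    · exact hw1 h
    · exact hwz h
  have hzc : ∀ x ∈ T, x * (a * a) = (a * a) * x := fun x hx => d.z_comm hx
  have hle0 : b ∈ U → d.V0 ≤ U := by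
    intro hb x hx
    rcases mem_kl.1 hx with rfl | rfl | rfl | rfl
    · exact one_mem _
    · exact hz
    · exact hb
    · exact mul_mem hb hz
  have hle1 : b * a ∈ U → d.V1 ≤ U := by
    intro hb x hx
    rcases mem_kl.1 hx with rfl | rfl | rfl | rfl
    · exact one_mem _
    · exact hz
    · exact hb
    · exact mul_mem hb hz
  have hzinv : (a * a) * (a * a) = 1 := d.z_sq
  have h0 : b ∈ U → U = d.V0 := fun hb =>
    (Subgroup.eq_of_le_of_card_ge (hle0 hb) (by rw [d.V0_card, hc])).symm
  have h1 : b * a ∈ U → U = d.V1 := fun hb =>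
    (Subgroup.eq_of_le_of_card_ge (hle1 hb) (by rw [d.V1_card, hc])).symm
  rcases d.form (hUT hw) hwA with h | h | h | h
  · left; exact h0 (h ▸ hw)
  · right; exact h1 (h ▸ hw)
  · left
    apply h0
    have h2 := mul_mem hw hz
    rw [h] at h2
    have : b * (a * a) * (a * a) = b := by rw [mul_assoc, hzinv, mul_one]
    rwa [this] at h2
  · right
    apply h1
    have h2 := mul_mem hw hz
    rw [h] at h2
    have : b * a⁻¹ * (a * a) = b * a := by group
    rwa [this] at h2

end TData

/-- The count of Klein four subgroups. -/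
theorem o_klein_count (h : Nat.card G = 168) (T : Sylow 2 G) :
    Nat.card {U : Subgroup G // U ≤ (T : Subgroup G) ∧ IsKleinFour ↥U} = 2 := by
  obtain ⟨a, b, d⟩ := exists_TData h T
  rw [Nat.card_eq_two_iff]
  refine ⟨⟨d.V0, d.V0_le, d.V0_klein⟩, ⟨d.V1, d.V1_le, d.V1_klein⟩, ?_, ?_⟩
  · intro he
    exact d.V0_ne_V1 (congrArg Subtype.val he)
  · ext ⟨U, hU1, hU2⟩
    simp only [Set.mem_insert_iff, Set.mem_singleton_iff, Set.mem_univ, iff_true, Subtype.mk.injEq]
    exact d.klein_cases hU1 hU2

/-- Klein four subgroups have index two in Sylow subgroups containing them. -/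
theorem o_klein_rel (h : Nat.card G = 168) (R : Sylow 2 G) {U : Subgroup G} (hUR : U ≤ R) (hU : IsKleinFour U) :
    U.relIndex (R : Subgroup G) = 2 := by
  have h1 := card_eq_relIndex_mul hUR
  rw [show Nat.card (R : Subgroup G) = 8 from o_card2 h R, hU.card_four] at h1
  omega

/-- The normalizer of a Klein four subgroup has order `24`, and lies over several Sylow subgroups. -/
theorem o_klein_normalizer (h : Nat.card G = 168) {U : Subgroup G} (hU : IsKleinFour U) :
    Nat.card (normalizer (U : Set G)) = 24 := by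
  classical
  have hc : Nat.card U = 4 := hU.card_four
  have hsq := sq_of_isKleinFour hU
  have hpg : IsPGroup 2 U := by
    rw [IsPGroup.iff_card, hc]
    exact ⟨2, by norm_num⟩
  obtain ⟨R, hR⟩ := hpg.exists_le_sylow
  obtain ⟨a, b, d⟩ := exists_TData h R
  have hz := d.z_mem_klein hR hU
  obtain ⟨w, hw, hw1, hwz⟩ := exists_mem_ne (U := U) (by omega) 1 (a * a)
  have hwA : w ∉ zpowers a := by
    intro hA
    rcases d.inv_in_A hA (hsq w hw) with h' | h'
    · exact hw1 h'
    · exact hwz h'
  have hUcomm : ∀ x ∈ U, ∀ y ∈ U, x * y = y * x := by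
    intro x hx y hy
    have h1 := hU.isMulCommutative
    have := h1.is_comm.comm ⟨x, hx⟩ ⟨y, hy⟩
    exact congrArg Subtype.val this
  -- centralizer
  have hCR : centralizer (U : Set G) ≤ R := by
    rw [← d.hC]
    intro c hc'
    rw [mem_centralizer_iff]
    intro v hv
    have hv' : v = a * a := hv
    rw [hv']
    exact (mem_centralizer_iff.1 hc') _ hz
  have hUC : U ≤ centralizer (U : Set G) := by
    intro x hx
    rw [mem_centralizer_iff]
    intro y hy
    exact hUcomm y hy x hx
  have hC4 : Nat.card (centralizer (U : Set G)) = 4 := by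
    have h1 : Nat.card U ∣ Nat.card (centralizer (U : Set G)) := Subgroup.card_dvd_of_le hUC
    have h2 : Nat.card (centralizer (U : Set G)) ∣ 8 := by
      have := Subgroup.card_dvd_of_le hCR
      rwa [show Nat.card (R : Subgroup G) = 8 from o_card2 h R] at this
    rw [hc] at h1
    have h3 : Nat.card (centralizer (U : Set G)) ≠ 8 := by
      intro h8
      have hCeq : centralizer (U : Set G) = R := by
        apply Subgroup.eq_of_le_of_card_ge hCR
        rw [h8, show Nat.card (R : Subgroup G) = 8 from o_card2 h R]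
      have ha : a ∈ centralizer (U : Set G) := by rw [hCeq]; exact d.ha
      have h5 : w * a = a * w := (mem_centralizer_iff.1 ha) w hw
      have h6 := d.hw w (hR hw) hwA
      rw [h5] at h6
      have h7 : a = a⁻¹ := by simpa using h6
      apply d.z_ne_one
      nth_rewrite 1 [h7]
      simp
    generalize Nat.card (centralizer (U : Set G)) = c at *
    have := Nat.le_of_dvd (by norm_num) h2
    interval_cases c <;> omega
  have hdvd : Nat.card (normalizer (U : Set G)) ∣ 24 := by
    have h1 := card_eq_relIndex_mul (centralizer_le_normalizer_of U)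
    rw [hC4] at h1
    have h2 : (centralizer (U : Set G)).relIndex (normalizer (U : Set G)) ∣ 6 := by
      have h3 := (relIndex_dvd_card_mulAut U).trans (card_mulAut_dvd_factorial U)
      rw [hc] at h3
      exact h3
    rw [h1]
    have h4 : (24 : ℕ) = 6 * 4 := by norm_num
    rw [h4]
    exact Nat.mul_dvd_mul_right h2 4
  -- two Sylow subgroups
  have hRN : (R : Subgroup G) ≤ normalizer (U : Set G) :=
    le_normalizer_of_relIndex_two hR (o_klein_rel h R hR hU)
  have hz2 : orderOf (a * a) = 2 := by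
    have h1 : a * a = a ^ 2 := (sq a).symm
    rw [h1, orderOf_pow_of_dvd (by norm_num) (by rw [d.hao]; norm_num), d.hao]
  have hw2 : orderOf w = 2 := by
    apply orderOf_eq_prime _ hw1
    rw [sq]
    exact hsq w hw
  obtain ⟨g, hg⟩ := isConj_iff.1 (o_conj2 h (a * a) w hz2 hw2)
  let R' : Sylow 2 G := g • R
  have hR'mem : ∀ x, x ∈ (R' : Subgroup G) ↔ g⁻¹ * x * g ∈ (R : Subgroup G) := by
    intro x
    show x ∈ ((g • R : Sylow 2 G) : Subgroup G) ↔ _
    rw [Sylow.coe_subgroup_smul]
    constructor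
    · rintro ⟨y, hy, rfl⟩
      show g⁻¹ * (g * y * g⁻¹) * g ∈ (R : Subgroup G)
      have h9 : g⁻¹ * (g * y * g⁻¹) * g = y := by group
      rw [h9]
      exact hy
    · intro hx
      exact ⟨_, hx, by
        show g * (g⁻¹ * x * g) * g⁻¹ = x
        group⟩
  have hwR' : w ∈ (R' : Subgroup G) := by
    rw [hR'mem, ← hg]
    have h9 : g⁻¹ * (g * (a * a) * g⁻¹) * g = a * a := by group
    rw [h9]
    exact d.zT
  have hCw : centralizer ({w} : Set G) = R' := by
    apply o_cent_central h R' hwR' hw1
    intro t ht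
    rw [hR'mem] at ht
    have h1 := d.z_comm ht
    rw [← hg]
    calc t * (g * (a * a) * g⁻¹) = g * ((g⁻¹ * t * g) * (a * a)) * g⁻¹ := by group
      _ = g * ((a * a) * (g⁻¹ * t * g)) * g⁻¹ := by rw [h1]
      _ = g * (a * a) * g⁻¹ * t := by group
  have hUR' : U ≤ R' := by
    rw [← hCw]
    intro x hx
    rw [mem_centralizer_iff]
    intro v hv
    have hv' : v = w := hv
    rw [hv']
    exact hUcomm w hw x hx
  have hR'N : (R' : Subgroup G) ≤ normalizer (U : Set G) :=
    le_normalizer_of_relIndex_two hUR' (o_klein_rel h R' hUR' hU)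
  have hne : R ≠ R' := by
    intro he
    have ha : a ∈ (R' : Subgroup G) := he ▸ d.ha
    rw [← hCw, mem_centralizer_iff] at ha
    have h5 : w * a = a * w := ha w rfl
    have h6 := d.hw w (hR hw) hwA
    rw [h5] at h6
    have h7 : a = a⁻¹ := by simpa using h6
    apply d.z_ne_one
    nth_rewrite 1 [h7]
    simp
  obtain ⟨h6, h7⟩ := card_sylow_subgroup_ge _ R R' hRN hR'N hne
  rw [o_card2 h R] at h7
  have h8 : 24 ≤ Nat.card (normalizer (U : Set G)) := by
    have := Nat.le_of_dvd Nat.card_pos h7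
    nlinarith
  exact le_antisymm (Nat.le_of_dvd (by norm_num) hdvd) h8

/-- Two different Klein four subgroups of a Sylow subgroup are not conjugate. -/
theorem o_klein_not_conj (h : Nat.card G = 168) (T : Sylow 2 G) (U W : Subgroup G) (hU : U ≤ T) (hW : W ≤ T)
    (hUk : IsKleinFour U) (hWk : IsKleinFour W) (hne : U ≠ W) (g : G) :
    U.map (MulAut.conj g).toMonoidHom ≠ W := by
  intro he
  -- `T` and `g T g⁻¹` normalize `W`
  have hTW : (T : Subgroup G) ≤ normalizer (W : Set G) :=
    le_normalizer_of_relIndex_two hW (o_klein_rel h T hW hWk)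
  have hTU : (T : Subgroup G) ≤ normalizer (U : Set G) :=
    le_normalizer_of_relIndex_two hU (o_klein_rel h T hU hUk)
  have hT' : ((g • T : Sylow 2 G) : Subgroup G) ≤ normalizer (W : Set G) := by
    rw [Sylow.coe_subgroup_smul]
    rintro _ ⟨t, ht, rfl⟩
    rw [Subgroup.mem_normalizer_iff]
    intro x
    have ht' := Subgroup.mem_normalizer_iff.1 (hTU ht)
    rw [← he]
    constructor
    · rintro ⟨u, hu, rfl⟩
      refine ⟨t * u * t⁻¹, (ht' u).1 hu, ?_⟩
      show g * (t * u * t⁻¹) * g⁻¹ = (g * t * g⁻¹) * (g * u * g⁻¹) * (g * t * g⁻¹)⁻¹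
      group
    · rintro ⟨u, hu, hu'⟩
      refine ⟨t⁻¹ * u * t, ?_, ?_⟩
      · have := (ht' (t⁻¹ * u * t)).2 (by
          have h3 : t * (t⁻¹ * u * t) * t⁻¹ = u := by group
          rw [h3]
          exact hu)
        exact this
      · have hu'' : g * u * g⁻¹ = (g * t * g⁻¹) * x * (g * t * g⁻¹)⁻¹ := hu'
        show g * (t⁻¹ * u * t) * g⁻¹ = x
        calc g * (t⁻¹ * u * t) * g⁻¹ = (g * t * g⁻¹)⁻¹ * (g * u * g⁻¹) * (g * t * g⁻¹) := by group
          _ = x := by rw [hu'']; group
  obtain ⟨n, hn, hnT⟩ := sylow_conj_in_subgroup (normalizer (W : Set G)) T (g • T) hTW hT'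
  have hmem : n * g ∈ normalizer ((T : Subgroup G) : Set G) := by
    apply Sylow.smul_eq_iff_mem_normalizer.1
    rw [mul_smul]
    exact hnT
  rw [o_N2 h T] at hmem
  -- `n g` normalizes `U`
  apply hne
  apply Subgroup.eq_of_le_of_card_ge
  · intro u hu
    have h1 : (n * g)⁻¹ * u * ((n * g)⁻¹)⁻¹ ∈ U :=
      (Subgroup.mem_normalizer_iff.1 (hTU (inv_mem hmem)) u).1 hu
    have h2 : g * ((n * g)⁻¹ * u * ((n * g)⁻¹)⁻¹) * g⁻¹ ∈ W := by
      rw [← he]
      exact ⟨_, h1, rfl⟩
    have h3 := (Subgroup.mem_normalizer_iff.1 hn _).1 h2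
    have h4 : n * (g * ((n * g)⁻¹ * u * ((n * g)⁻¹)⁻¹) * g⁻¹) * n⁻¹ = u := by group
    rwa [h4] at h3
  · rw [hUk.card_four, hWk.card_four]

end O168

end Cfsg.Agent.H04.Small
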