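import Cfsg.Agent.Lib.H04.Small.O168b

/-!
# Simple groups of order 168: maximal subgroups
-/

set_option autoImplicit false
set_option linter.style.haveILetI false
set_option linter.unusedSectionVars false
set_option linter.unusedVariables false

namespace Cfsg.Agent.H04.Small

open MulAction Subgroup Cfsg.Agent.H04

section general

variable {G : Type*} [Group G] [Finite G]

/-- Conjugating the normalizer. -/
theorem normalizer_map_conj (H : Subgroup G) (g : G) :
    normalizer ((H.map (MulAut.conj g).toMonoidHom : Subgroup G) : Set G) =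
      (normalizer (H : Set G)).map (MulAut.conj g).toMonoidHom := by
  ext x
  have hmem : ∀ y : G, y ∈ H.map (MulAut.conj g).toMonoidHom ↔ g⁻¹ * y * g ∈ H := by
    intro y
    constructor
    · rintro ⟨u, hu, rfl⟩
      show g⁻¹ * (g * u * g⁻¹) * g ∈ H
      have h9 : g⁻¹ * (g * u * g⁻¹) * g = u := by group
      rw [h9]
      exact hu
    · intro hy
      exact ⟨_, hy, by
        show g * (g⁻¹ * y * g) * g⁻¹ = y
        group⟩
  have hmem2 : x ∈ (normalizer (H : Set G)).map (MulAut.conj g).toMonoidHom ↔
      g⁻¹ * x * g ∈ normalizer (H : Set G) := by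
    constructor
    · rintro ⟨u, hu, rfl⟩
      show g⁻¹ * (g * u * g⁻¹) * g ∈ _
      have h9 : g⁻¹ * (g * u * g⁻¹) * g = u := by group
      rw [h9]
      exact hu
    · intro hy
      exact ⟨_, hy, by
        show g * (g⁻¹ * x * g) * g⁻¹ = x
        group⟩
  rw [hmem2, Subgroup.mem_normalizer_iff, Subgroup.mem_normalizer_iff]
  constructor
  · intro h y
    have h1 := h (g * y * g⁻¹)
    rw [hmem, hmem] at h1
    have e1 : g⁻¹ * (g * y * g⁻¹) * g = y := by group
    have e2 : g⁻¹ * (x * (g * y * g⁻¹) * x⁻¹) * g = (g⁻¹ * x * g) * y * (g⁻¹ * x * g)⁻¹ := by group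
    rwa [e1, e2] at h1
  · intro h y
    have h1 := h (g⁻¹ * y * g)
    rw [hmem, hmem]
    have e2 : g⁻¹ * (x * y * x⁻¹) * g = (g⁻¹ * x * g) * (g⁻¹ * y * g) * (g⁻¹ * x * g)⁻¹ := by group
    rw [e2]
    exact h1

theorem card_map_conj (H : Subgroup G) (g : G) : Nat.card (H.map (MulAut.conj g).toMonoidHom) = Nat.card H :=
  Nat.card_congr (Subgroup.equivMapOfInjective H _ (MulEquiv.injective _)).symm.toEquiv

theorem map_conj_klein {H : Subgroup G} (hH : IsKleinFour H) (g : G) :
    IsKleinFour (H.map (MulAut.conj g).toMonoidHom) := by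
  apply isKleinFour_of
  · rw [card_map_conj]
    exact hH.card_four
  · rintro _ ⟨u, hu, rfl⟩
    have h1 := sq_of_isKleinFour hH u hu
    rw [← map_mul, h1, map_one]

theorem coe_smul_eq_map {p : ℕ} [Fact p.Prime] (g : G) (S : Sylow p G) :
    ((g • S : Sylow p G) : Subgroup G) = (S : Subgroup G).map (MulAut.conj g).toMonoidHom := by
  rw [Sylow.coe_subgroup_smul]
  rfl

/-- If a Sylow subgroup in a small subgroup is not normal, contradiction. -/
theorem le_normalizer_of_small {p : ℕ} [Fact p.Prime] (M : Subgroup G) (S : Sylow p G) (hS : (S : Subgroup G) ≤ M)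
    (hsmall : Nat.card M < (p + 1) * Nat.card S) : M ≤ normalizer ((S : Subgroup G) : Set G) := by
  intro m hm
  by_contra hcon
  have hne : S ≠ m • S := by
    intro he
    exact hcon (Sylow.smul_eq_iff_mem_normalizer.1 he.symm)
  have hle : ((m • S : Sylow p G) : Subgroup G) ≤ M := by
    rw [Sylow.coe_subgroup_smul]
    rintro _ ⟨u, hu, rfl⟩
    exact mul_mem (mul_mem hm (hS hu)) (inv_mem hm)
  obtain ⟨h1, h2⟩ := card_sylow_subgroup_ge M S (m • S) hS hle hne
  have h3 := Nat.le_of_dvd Nat.card_pos h2
  have h4 : (p + 1) * Nat.card S ≤ Nat.card (Sylow p M) * Nat.card S := Nat.mul_le_mul_right _ h1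
  omega

/-- Normalizers in subgroups. -/
theorem mem_normalizer_of_subgroupOf (M S : Subgroup G) (hS : S ≤ M) (y : M)
    (hy : y ∈ normalizer ((S.subgroupOf M : Subgroup M) : Set M)) : (y : G) ∈ normalizer (S : Set G) := by
  rw [Subgroup.mem_normalizer_iff]
  intro s
  constructor
  · intro hs
    have h1 : (⟨s, hS hs⟩ : M) ∈ S.subgroupOf M := hs
    have h2 := (Subgroup.mem_normalizer_iff.1 hy _).1 h1
    exact h2
  · intro hs
    have hsM : s ∈ M := by
      have h3 := mul_mem (mul_mem (inv_mem y.2) (hS hs)) y.2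
      have h4 : (y : G)⁻¹ * ((y : G) * s * (y : G)⁻¹) * (y : G) = s := by group
      rwa [h4] at h3
    have h2 : y * (⟨s, hsM⟩ : M) * y⁻¹ ∈ S.subgroupOf M := hs
    have h3 := (Subgroup.mem_normalizer_iff.1 hy _).2 h2
    exact h3

end general

section O168

variable {G : Type*} [Group G] [Finite G] [IsSimpleGroup G]

theorem o_card_le (h : Nat.card G = 168) (K : Subgroup G) (hK : K ≠ ⊤) : Nat.card K ≤ 24 := by
  have h1 := o_index h K hK
  have h2 := K.card_mul_index
  rw [h] at h2
  by_contra hlt
  push Not at hlt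
  nlinarith

theorem o_ne_top_of_card (h : Nat.card G = 168) {K : Subgroup G} (hK : Nat.card K ≤ 24) : K ≠ ⊤ := by
  intro he
  rw [he, Subgroup.card_top, h] at hK
  omega

theorem o_coatom_of_card (h : Nat.card G = 168) {M : Subgroup G} (hM : Nat.card M = 24 ∨ Nat.card M = 21) :
    IsCoatom M := by
  have hne : M ≠ ⊤ := o_ne_top_of_card h (by rcases hM with h1 | h1 <;> omega)
  refine ⟨hne, fun K hK => ?_⟩
  by_contra hKt
  have h1 := o_card_le h K hKt
  have h2 : Nat.card M ∣ Nat.card K := Subgroup.card_dvd_of_le hK.le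
  have h3 : Nat.card K ≠ Nat.card M := by
    intro he
    exact hK.ne (Subgroup.eq_of_le_of_card_ge hK.le (le_of_eq he))
  have hpos : 0 < Nat.card K := Nat.card_pos
  rcases hM with h4 | h4 <;> rw [h4] at h2 h3
  · have := Nat.le_of_dvd hpos h2
    omega
  · have := Nat.le_of_dvd hpos h2
    obtain ⟨c, hc⟩ := h2
    have hc1 : c = 1 := by
      have : c ≠ 0 := by
        rintro rfl
        omega
      have h6 : c < 2 := by
        by_contra h7
        push Not at h7
        nlinarith
      omega
    rw [hc1] at hc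
    omega

/-- A subgroup of order four normalized by an element of order three is Klein. -/
theorem klein_of_normal4 (h : Nat.card G = 168) {K : Subgroup G} (hK : Nat.card K = 4) {x : G} (hx : orderOf x = 3)
    (hxN : x ∈ normalizer (K : Set G)) : IsKleinFour K := by
  apply isKleinFour_of hK
  intro e he
  by_contra hne
  have he2 : ¬ e ^ 2 = 1 := by rwa [sq]
  have hd : orderOf e ∣ 4 := by
    rw [← hK]
    exact Subgroup.orderOf_dvd_natCard K he
  have he4 : orderOf e = 4 := by
    have h3 : ¬ orderOf e ∣ 2 := fun h5 => he2 (orderOf_dvd_iff_pow_eq_one.1 h5)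
    generalize orderOf e = c at *
    have := Nat.le_of_dvd (by norm_num) hd
    interval_cases c <;> omega
  have hKe : K = zpowers e := by
    symm
    apply Subgroup.eq_of_le_of_card_ge
    · rw [Subgroup.zpowers_le]; exact he
    · rw [hK, Nat.card_zpowers, he4]
  have h1 : x * e * x⁻¹ ∈ K := (Subgroup.mem_normalizer_iff.1 hxN e).1 he
  have ho : orderOf (x * e * x⁻¹) = 4 := by rw [orderOf_conj', he4]
  rw [hKe] at h1
  obtain ⟨k, hk4, hk⟩ : ∃ k < 4, e ^ k = x * e * x⁻¹ := by
    classical
    rw [mem_zpowers_iff_mem_range_orderOf, he4] at h1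
    simpa using h1
  have he1 : e ≠ 1 := by
    rintro rfl
    rw [orderOf_one] at he4
    omega
  have hpow : e ^ (2 ^ 2) = 1 := by
    have : (2 : ℕ) ^ 2 = 4 := by norm_num
    rw [this, ← he4]
    exact pow_orderOf_eq_one e
  have hcomm : x * e = e * x := by
    have hx3 : x ^ 3 = 1 := by rw [← hx]; exact pow_orderOf_eq_one x
    have he44 : e ^ 4 = 1 := by rw [← he4]; exact pow_orderOf_eq_one e
    interval_cases k
    · exfalso
      rw [← hk, pow_zero, orderOf_one] at ho
      omega
    · rw [pow_one] at hk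
      calc x * e = (x * e * x⁻¹) * x := by group
        _ = e * x := by rw [← hk]
    · exfalso
      rw [← hk] at ho
      have h3 : (e ^ 2) ^ 2 = 1 := by
        rw [← pow_mul]
        exact he44
      have h4 := orderOf_dvd_of_pow_eq_one h3
      rw [ho] at h4
      omega
    · -- inversion
      have hinv : x * e * x⁻¹ = e⁻¹ := by
        rw [← hk, eq_inv_iff_mul_eq_one, ← pow_succ]
        exact he44
      have hinv' : x * e⁻¹ * x⁻¹ = e := by
        have : x * e⁻¹ * x⁻¹ = (x * e * x⁻¹)⁻¹ := by group
        rw [this, hinv, inv_inv]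
      have h2 : x * x * e * (x * x)⁻¹ = e := by
        calc x * x * e * (x * x)⁻¹ = x * (x * e * x⁻¹) * x⁻¹ := by group
          _ = x * e⁻¹ * x⁻¹ := by rw [hinv]
          _ = e := hinv'
      have h3 : (x * x) * e = e * (x * x) := by
        calc (x * x) * e = (x * x * e * (x * x)⁻¹) * (x * x) := by group
          _ = e * (x * x) := by rw [h2]
      have h4 : x = (x * x) * (x * x) := by
        calc x = x * x ^ 3 := by rw [hx3, mul_one]
          _ = (x * x) * (x * x) := by
              simp only [pow_succ, pow_zero, one_mul, mul_assoc]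
      rw [h4]
      have hc : Commute (x * x) e := h3
      exact (hc.mul_left hc).eq
  exact o_not_comm h he1 hpow (Or.inl hx) hcomm

/-- A subgroup of order `24` is the normalizer of a Klein four group. -/
theorem o_card24 (h : Nat.card G = 168) {M : Subgroup G} (hM : Nat.card M = 24) :
    ∃ K : Subgroup G, IsKleinFour K ∧ M = normalizer (K : Set G) := by
  classical
  obtain ⟨x', hx'⟩ := exists_prime_orderOf_dvd_card' (G := M) 3 (by rw [hM]; norm_num)
  have hxo : orderOf (x' : G) = 3 := by rwa [Subgroup.orderOf_coe]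
  -- a Sylow subgroup inside `M`
  obtain S' : Sylow 2 M := default
  have hS'card : Nat.card (S' : Subgroup M) = 8 := by
    have := card_sylow_eq_pow (p := 2) (G := M) 3 3 (by rw [hM]; norm_num) (by norm_num) S'
    simpa using this
  let Q : Subgroup G := (S' : Subgroup M).map M.subtype
  have hQcard : Nat.card Q = 8 := by
    rw [Nat.card_congr (Subgroup.equivMapOfInjective (S' : Subgroup M) M.subtype M.subtype_injective).symm.toEquiv]
    exact hS'card
  have hQM : Q ≤ M := by
    rintro _ ⟨u, -, rfl⟩
    exact u.2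
  have hpg : IsPGroup 2 Q := by
    rw [IsPGroup.iff_card, hQcard]
    exact ⟨3, by norm_num⟩
  obtain ⟨T, hT⟩ := hpg.exists_le_sylow
  have hTQ : Q = T := by
    apply Subgroup.eq_of_le_of_card_ge hT
    rw [hQcard, show Nat.card (T : Subgroup G) = 8 from o_card2 h T]
  have hTM : (T : Subgroup G) ≤ M := hTQ ▸ hQM
  -- a second Sylow subgroup
  have hx'T : (x' : G) ∉ (T : Subgroup G) := by
    intro hmem
    have h1 := Subgroup.orderOf_dvd_natCard _ hmem
    rw [show Nat.card (T : Subgroup G) = 8 from o_card2 h T, hxo] at h1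
    omega
  let R : Sylow 2 G := (x' : G) • T
  have hRM : (R : Subgroup G) ≤ M := by
    show ((( (x' : G) • T : Sylow 2 G)) : Subgroup G) ≤ M
    rw [Sylow.coe_subgroup_smul]
    rintro _ ⟨u, hu, rfl⟩
    exact mul_mem (mul_mem x'.2 (hTM hu)) (inv_mem x'.2)
  have hne : T ≠ R := by
    intro he
    apply hx'T
    have : (x' : G) ∈ normalizer ((T : Subgroup G) : Set G) :=
      Sylow.smul_eq_iff_mem_normalizer.1 he.symm
    rwa [o_N2 h T] at this
  -- the intersection
  obtain ⟨K, hK⟩ : ∃ K : Subgroup G, K = (T : Subgroup G) ⊓ R := ⟨_, rfl⟩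
  have hKT : K ≤ T := hK ▸ inf_le_left
  have hKR : K ≤ R := hK ▸ inf_le_right
  have hR8 : Nat.card (R : Subgroup G) = 8 := o_card2 h R
  have hT8 : Nat.card (T : Subgroup G) = 8 := o_card2 h T
  have hKrel : K.relIndex (T : Subgroup G) = (R : Subgroup G).relIndex (T : Subgroup G) := by
    rw [hK, Subgroup.inf_relIndex_left]
  have h3 := card_eq_relIndex_mul hKT
  rw [hKrel, hT8] at h3
  have hrel : (R : Subgroup G).relIndex (T : Subgroup G) = 2 := by
    have h1 : (R : Subgroup G).relIndex (T : Subgroup G) ≤ (R : Subgroup G).relIndex M :=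
      Subgroup.relIndex_le_of_le_right hTM Subgroup.index_ne_zero_of_finite
    have h2 := card_eq_relIndex_mul hRM
    rw [hM, hR8] at h2
    have h4 : (R : Subgroup G).relIndex (T : Subgroup G) ≠ 1 := by
      intro h5
      apply hne
      exact Sylow.ext (T.is_maximal' R.isPGroup' (Subgroup.relIndex_eq_one.1 h5)).symm
    have h5 : (R : Subgroup G).relIndex (T : Subgroup G) ∣ 8 := ⟨_, h3⟩
    generalize (R : Subgroup G).relIndex (T : Subgroup G) = r at *
    have h6 : r ≤ 3 := by omega
    interval_cases r <;> omega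
  have hK4 : Nat.card K = 4 := by
    rw [hrel] at h3
    omega
  have hTrel : K.relIndex (T : Subgroup G) = 2 := by rw [hKrel, hrel]
  have hRrel : K.relIndex (R : Subgroup G) = 2 := by
    have h5 := card_eq_relIndex_mul hKR
    rw [hR8, hK4] at h5
    omega
  have hTN := le_normalizer_of_relIndex_two hKT hTrel
  have hRN := le_normalizer_of_relIndex_two hKR hRrel
  have hsup : (T : Subgroup G) ⊔ R = M := by
    apply Subgroup.eq_of_le_of_card_ge (sup_le hTM hRM)
    rw [hM]
    have h1 : Nat.card ((T : Subgroup G) ⊔ R : Subgroup G) ∣ 24 := by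
      rw [← hM]
      exact Subgroup.card_dvd_of_le (sup_le hTM hRM)
    have h2 : 8 ∣ Nat.card ((T : Subgroup G) ⊔ R : Subgroup G) := by
      rw [← hT8]
      exact Subgroup.card_dvd_of_le le_sup_left
    have h3' : Nat.card ((T : Subgroup G) ⊔ R : Subgroup G) ≠ 8 := by
      intro h8
      have h4 : (T : Subgroup G) = (T : Subgroup G) ⊔ R :=
        Subgroup.eq_of_le_of_card_ge le_sup_left (by rw [h8, hT8])
      apply hne
      have h5 : (R : Subgroup G) ≤ T := by
        rw [h4]
        exact le_sup_right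
      exact Sylow.ext (R.is_maximal' T.isPGroup' h5)
    generalize Nat.card ((T : Subgroup G) ⊔ R : Subgroup G) = c at *
    have := Nat.le_of_dvd (by norm_num) h1
    interval_cases c <;> omega
  have hMN : M ≤ normalizer (K : Set G) := by
    rw [← hsup]
    exact sup_le hTN hRN
  have hKk : IsKleinFour K := klein_of_normal4 h hK4 hxo (hMN x'.2)
  refine ⟨K, hKk, ?_⟩
  apply Subgroup.eq_of_le_of_card_ge hMN
  rw [hM, o_klein_normalizer h hKk]

/-- A Klein four group with an order three element in its normalizer. -/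
theorem o_exists_L (h : Nat.card G = 168) (x : G) (hx : orderOf x = 3) :
    ∃ V : Subgroup G, IsKleinFour V ∧ x ∈ normalizer (V : Set G) := by
  obtain T : Sylow 2 G := default
  obtain ⟨a, b, d⟩ := exists_TData h T
  have hV := d.V0_klein
  obtain ⟨y, hy⟩ := exists_prime_orderOf_dvd_card' (G := normalizer (d.V0 : Set G)) 3 (by
    rw [o_klein_normalizer h hV]; norm_num)
  have hyo : orderOf (y : G) = 3 := by rwa [Subgroup.orderOf_coe]
  obtain ⟨g, hg⟩ := isConj_iff.1 (o_conj3 h (y : G) x hyo hx)
  refine ⟨d.V0.map (MulAut.conj g).toMonoidHom, map_conj_klein hV g, ?_⟩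
  rw [normalizer_map_conj]
  exact ⟨y, y.2, hg⟩

theorem o_N3_le (h : Nat.card G = 168) (S : Sylow 3 G) {L : Subgroup G} (hL : Nat.card L = 24)
    (hS : (S : Subgroup G) ≤ L) : normalizer ((S : Subgroup G) : Set G) ≤ L := by
  let S' : Sylow 3 L := S.subtype hS
  have hcoe : (S' : Subgroup L) = (S : Subgroup G).subgroupOf L := Sylow.coe_subtype S hS
  have hS'card : Nat.card (S' : Subgroup L) = 3 := by
    rw [hcoe, Nat.card_congr (Subgroup.subgroupOfEquivOfLe hS).toEquiv]
    exact o_card3 h S
  have hn := card_normalizer_mul S'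
  rw [hL] at hn
  have hd : Nat.card (Sylow 3 L) ∣ 8 := card_sylow_dvd_of_card_eq S' 8 (by
    show Nat.card (S' : Subgroup L) * 8 = Nat.card L
    rw [hS'card, hL])
  have hm : Nat.card (Sylow 3 L) ≡ 1 [MOD 3] := card_sylow_modEq_one 3 L
  have hn6 : 6 ≤ Nat.card (normalizer ((S' : Subgroup L) : Set L)) := by
    generalize Nat.card (Sylow 3 L) = n at *
    have := Nat.le_of_dvd (by norm_num) hd
    unfold Nat.ModEq at hm
    generalize Nat.card (normalizer ((S' : Subgroup L) : Set L)) = c at *
    interval_cases n <;> omega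
  let I : Subgroup G := (normalizer ((S' : Subgroup L) : Set L)).map L.subtype
  have hIcard : Nat.card I = Nat.card (normalizer ((S' : Subgroup L) : Set L)) :=
    Nat.card_congr (Subgroup.equivMapOfInjective _ L.subtype L.subtype_injective).symm.toEquiv
  have hIle : I ≤ normalizer ((S : Subgroup G) : Set G) := by
    rintro _ ⟨y, hy, rfl⟩
    apply mem_normalizer_of_subgroupOf L (S : Subgroup G) hS y
    rw [← hcoe]
    exact hy
  have hIeq : I = normalizer ((S : Subgroup G) : Set G) := by
    apply Subgroup.eq_of_le_of_card_ge hIle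
    rw [o_N3 h S, hIcard]
    exact hn6
  rw [← hIeq]
  rintro _ ⟨y, -, rfl⟩
  exact y.2

theorem exists_sylow_eq_zpowers (h : Nat.card G = 168) {x : G} (hx : orderOf x = 3) :
    ∃ S : Sylow 3 G, (S : Subgroup G) = zpowers x := by
  have hpg : IsPGroup 3 (zpowers x) := by
    rw [IsPGroup.iff_card, Nat.card_zpowers, hx]
    exact ⟨1, by simp⟩
  obtain ⟨S, hS⟩ := hpg.exists_le_sylow
  refine ⟨S, ?_⟩
  symm
  apply Subgroup.eq_of_le_of_card_ge hS
  rw [show Nat.card (S : Subgroup G) = 3 from o_card3 h S, Nat.card_zpowers, hx]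

theorem exists_sylow_eq_zpowers7 (h : Nat.card G = 168) {x : G} (hx : orderOf x = 7) :
    ∃ S : Sylow 7 G, (S : Subgroup G) = zpowers x := by
  have hpg : IsPGroup 7 (zpowers x) := by
    rw [IsPGroup.iff_card, Nat.card_zpowers, hx]
    exact ⟨1, by simp⟩
  obtain ⟨S, hS⟩ := hpg.exists_le_sylow
  refine ⟨S, ?_⟩
  symm
  apply Subgroup.eq_of_le_of_card_ge hS
  rw [show Nat.card (S : Subgroup G) = 7 from o_card7 h S, Nat.card_zpowers, hx]

/-- Subgroups of order `21`. -/
theorem o_card21 (h : Nat.card G = 168) {M : Subgroup G} (hM : Nat.card M ≤ 24) (h7 : 7 ∣ Nat.card M) :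
    ∃ S : Sylow 7 G, M = normalizer ((S : Subgroup G) : Set G) ∨ M < normalizer ((S : Subgroup G) : Set G) := by
  obtain ⟨x', hx'⟩ := exists_prime_orderOf_dvd_card' (G := M) 7 h7
  have hxo : orderOf (x' : G) = 7 := by rwa [Subgroup.orderOf_coe]
  obtain ⟨S, hS⟩ := exists_sylow_eq_zpowers7 h hxo
  have hSM : (S : Subgroup G) ≤ M := by
    rw [hS, Subgroup.zpowers_le]
    exact x'.2
  have hle := le_normalizer_of_small M S hSM (by rw [o_card7 h S]; omega)
  exact ⟨S, (eq_or_lt_of_le hle)⟩

/-- Classification of maximal subgroups by their order. -/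
theorem o_coatom_cases (h : Nat.card G = 168) {M : Subgroup G} (hM : IsCoatom M) :
    Nat.card M = 24 ∨ (Nat.card M = 21 ∧ ¬ IsMulCommutative M) := by
  classical
  have hle := o_card_le h M hM.1
  have hdvd : Nat.card M ∣ 168 := h ▸ Subgroup.card_subgroup_dvd_card M
  have hcoat : ∀ K : Subgroup G, M ≤ K → Nat.card K ≤ 24 → K = M := by
    intro K hK hc
    exact (hM.le_iff_eq (o_ne_top_of_card h hc)).1 hK
  by_cases h7 : 7 ∣ Nat.card M
  · right
    obtain ⟨x', hx'⟩ := exists_prime_orderOf_dvd_card' (G := M) 7 h7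
    have hxo : orderOf (x' : G) = 7 := by rwa [Subgroup.orderOf_coe]
    obtain ⟨S, hS⟩ := exists_sylow_eq_zpowers7 h hxo
    have hSM : (S : Subgroup G) ≤ M := by
      rw [hS, Subgroup.zpowers_le]
      exact x'.2
    have hN := le_normalizer_of_small M S hSM (by rw [o_card7 h S]; omega)
    have hMeq := hcoat _ hN (by rw [o_N7 h S]; norm_num)
    have hc21 : Nat.card M = 21 := by
      rw [← hMeq]
      exact o_N7 h S
    refine ⟨hc21, ?_⟩
    intro hcomm
    have hMC : M ≤ centralizer ((S : Subgroup G) : Set G) := by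
      intro m hm
      rw [mem_centralizer_iff]
      intro s hs
      have := hcomm.is_comm.comm ⟨s, hSM hs⟩ ⟨m, hm⟩
      exact congrArg Subtype.val this
    have h5 := Subgroup.card_le_of_le hMC
    rw [o_C7 h S] at h5
    omega
  by_cases h3 : 3 ∣ Nat.card M
  · obtain ⟨x', hx'⟩ := exists_prime_orderOf_dvd_card' (G := M) 3 h3
    have hxo : orderOf (x' : G) = 3 := by rwa [Subgroup.orderOf_coe]
    obtain ⟨S, hS⟩ := exists_sylow_eq_zpowers h hxo
    have hSM : (S : Subgroup G) ≤ M := by
      rw [hS, Subgroup.zpowers_le]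
      exact x'.2
    have hcases : Nat.card M = 3 ∨ Nat.card M = 6 ∨ Nat.card M = 12 ∨ Nat.card M = 24 := by
      generalize Nat.card M = c at *
      interval_cases c <;> omega
    rcases hcases with hc | hc | hc | hc
    · exfalso
      have hN := le_normalizer_of_small M S hSM (by rw [o_card3 h S, hc]; norm_num)
      have hMeq := hcoat _ hN (by rw [o_N3 h S]; norm_num)
      have : Nat.card M = 6 := by rw [← hMeq]; exact o_N3 h S
      omega
    · exfalso
      have hN := le_normalizer_of_small M S hSM (by rw [o_card3 h S, hc]; norm_num)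
      have hMeq := hcoat _ hN (by rw [o_N3 h S]; norm_num)
      obtain ⟨V, hV, hxV⟩ := o_exists_L h (x' : G) hxo
      have hVc := o_klein_normalizer h hV
      have hSL : (S : Subgroup G) ≤ normalizer (V : Set G) := by
        rw [hS, Subgroup.zpowers_le]
        exact hxV
      have hle2 := o_N3_le h S hVc hSL
      rw [hMeq] at hle2
      have h8 := hcoat _ hle2 (by rw [hVc])
      have : Nat.card M = 24 := by rw [← h8]; exact hVc
      omega
    · exfalso
      -- a subgroup of order four
      obtain S' : Sylow 2 M := default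
      have hS'card : Nat.card (S' : Subgroup M) = 4 := by
        have := card_sylow_eq_pow (p := 2) (G := M) 2 3 (by rw [hc]; norm_num) (by norm_num) S'
        simpa using this
      let K : Subgroup G := (S' : Subgroup M).map M.subtype
      have hK4 : Nat.card K = 4 := by
        rw [Nat.card_congr (Subgroup.equivMapOfInjective (S' : Subgroup M) M.subtype M.subtype_injective).symm.toEquiv]
        exact hS'card
      have hKM : K ≤ M := by
        rintro _ ⟨u, -, rfl⟩
        exact u.2
      have hKnorm : M ≤ normalizer (K : Set G) := by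
        intro m hm
        by_contra hcon
        let K' : Subgroup G := K.map (MulAut.conj m).toMonoidHom
        have hK'4 : Nat.card K' = 4 := by
          rw [card_map_conj]
          exact hK4
        have hK'M : K' ≤ M := by
          rintro _ ⟨u, hu, rfl⟩
          exact mul_mem (mul_mem hm (hKM hu)) (inv_mem hm)
        have hKne : K ≠ K' := by
          intro he
          apply hcon
          rw [Subgroup.mem_normalizer_iff]
          intro y
          constructor
          · intro hy
            have h1 : m * y * m⁻¹ ∈ K' := ⟨y, hy, rfl⟩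
            rwa [← he] at h1
          · intro hy
            rw [he] at hy
            obtain ⟨u, hu, hu'⟩ := hy
            have h1 : m * u * m⁻¹ = m * y * m⁻¹ := hu'
            have h2 : u = y := by
              have h3 := congrArg (fun w => m⁻¹ * w * m) h1
              simpa [mul_assoc] using h3
            rwa [← h2]
        obtain ⟨D, hD⟩ : ∃ D : Subgroup G, D = K ⊓ K' := ⟨_, rfl⟩
        have hDK : D ≤ K := hD ▸ inf_le_left
        have hDK' : D ≤ K' := hD ▸ inf_le_right
        have hDrel : D.relIndex K = K'.relIndex K := by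
          rw [hD, Subgroup.inf_relIndex_left]
        have h3 := card_eq_relIndex_mul hDK
        rw [hDrel, hK4] at h3
        have hrel : K'.relIndex K = 2 := by
          have h1 : K'.relIndex K ≤ K'.relIndex M :=
            Subgroup.relIndex_le_of_le_right hKM Subgroup.index_ne_zero_of_finite
          have h2 := card_eq_relIndex_mul hK'M
          rw [hc, hK'4] at h2
          have h4 : K'.relIndex K ≠ 1 := by
            intro h5
            apply hKne
            apply Subgroup.eq_of_le_of_card_ge (Subgroup.relIndex_eq_one.1 h5)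
            rw [hK'4, hK4]
          have h5 : K'.relIndex K ∣ 4 := ⟨_, h3⟩
          generalize K'.relIndex K = r at *
          have h6 : r ≤ 3 := by omega
          interval_cases r <;> omega
        have hD2 : Nat.card D = 2 := by
          rw [hrel] at h3
          omega
        obtain ⟨t, ht⟩ := exists_prime_orderOf_dvd_card' (G := D) 2 (by rw [hD2])
        have hto : orderOf (t : G) = 2 := by rwa [Subgroup.orderOf_coe]
        have ht1 : (t : G) ≠ 1 := by
          intro h5
          rw [h5, orderOf_one] at hto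
          omega
        have hKc := comm_of_card_sq (p := 2) (P := K) (by rw [hK4]; norm_num)
        have hK'c := comm_of_card_sq (p := 2) (P := K') (by rw [hK'4]; norm_num)
        have hKC : K ≤ centralizer ({(t : G)} : Set G) := by
          intro u hu
          rw [mem_centralizer_iff]
          intro w hw
          have hw' : w = t := hw
          rw [hw']
          exact hKc _ (hDK t.2) _ hu
        have hK'C : K' ≤ centralizer ({(t : G)} : Set G) := by
          intro u hu
          rw [mem_centralizer_iff]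
          intro w hw
          have hw' : w = t := hw
          rw [hw']
          exact hK'c _ (hDK' t.2) _ hu
        have hsup : K ⊔ K' = M := by
          apply Subgroup.eq_of_le_of_card_ge (sup_le hKM hK'M)
          rw [hc]
          have h1 : Nat.card (K ⊔ K' : Subgroup G) ∣ 12 := by
            rw [← hc]
            exact Subgroup.card_dvd_of_le (sup_le hKM hK'M)
          have h2 : 4 ∣ Nat.card (K ⊔ K' : Subgroup G) := by
            rw [← hK4]
            exact Subgroup.card_dvd_of_le le_sup_left
          have h3' : Nat.card (K ⊔ K' : Subgroup G) ≠ 4 := by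
            intro h8
            have h4 : K = K ⊔ K' := Subgroup.eq_of_le_of_card_ge le_sup_left (by rw [h8, hK4])
            apply hKne
            symm
            apply Subgroup.eq_of_le_of_card_ge
            · rw [h4]
              exact le_sup_right
            · rw [hK4, hK'4]
          generalize Nat.card (K ⊔ K' : Subgroup G) = c at *
          have := Nat.le_of_dvd (by norm_num) h1
          interval_cases c <;> omega
        have hMC : M ≤ centralizer ({(t : G)} : Set G) := by
          rw [← hsup]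
          exact sup_le hKC hK'C
        have h5 : (t : G) * x' = x' * t := (mem_centralizer_iff.1 (hMC x'.2)) t rfl
        have ht2 : (t : G) ^ (2 ^ 1) = 1 := by
          rw [pow_one, ← hto]
          exact pow_orderOf_eq_one _
        exact o_not_comm h ht1 ht2 (Or.inl hxo) h5.symm
      have hKk : IsKleinFour K := klein_of_normal4 h hK4 hxo (hKnorm x'.2)
      have h8 := hcoat _ hKnorm (by rw [o_klein_normalizer h hKk])
      have h9 := o_klein_normalizer h hKk
      rw [h8] at h9
      omega
    · exact Or.inl hc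
  · exfalso
    have hc8 : Nat.card M ∣ 8 := by
      generalize Nat.card M = c at *
      have := Nat.le_of_dvd (by norm_num) hdvd
      interval_cases c <;> omega
    have hpg : IsPGroup 2 M := by
      obtain ⟨k, hk, hk2⟩ := (Nat.dvd_prime_pow Nat.prime_two).1 (show Nat.card M ∣ 2 ^ 3 from hc8)
      rw [IsPGroup.iff_card]
      exact ⟨k, hk2⟩
    obtain ⟨T, hT⟩ := hpg.exists_le_sylow
    have hT8 : Nat.card (T : Subgroup G) = 8 := o_card2 h T
    have h1 := hcoat _ hT (by rw [hT8]; norm_num)
    obtain ⟨a, b, d⟩ := exists_TData h T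
    have hV := d.V0_klein
    have hTN := le_normalizer_of_relIndex_two d.V0_le (o_klein_rel h T d.V0_le hV)
    have h2 := hcoat _ (hT.trans hTN) (by rw [o_klein_normalizer h hV])
    have h3 := o_klein_normalizer h hV
    rw [h2] at h3
    have h4 : Nat.card M = 8 := by
      rw [← h1]
      exact hT8
    omega

/-- Order `21` subgroups are Sylow normalizers. -/
theorem o_eq_N7 (h : Nat.card G = 168) {M : Subgroup G} (hM : Nat.card M = 21) :
    ∃ S : Sylow 7 G, M = normalizer ((S : Subgroup G) : Set G) := by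
  obtain ⟨x', hx'⟩ := exists_prime_orderOf_dvd_card' (G := M) 7 (by rw [hM]; norm_num)
  have hxo : orderOf (x' : G) = 7 := by rwa [Subgroup.orderOf_coe]
  obtain ⟨S, hS⟩ := exists_sylow_eq_zpowers7 h hxo
  have hSM : (S : Subgroup G) ≤ M := by
    rw [hS, Subgroup.zpowers_le]
    exact x'.2
  have hN := le_normalizer_of_small M S hSM (by rw [o_card7 h S]; omega)
  refine ⟨S, Subgroup.eq_of_le_of_card_ge hN ?_⟩
  rw [o_N7 h S, hM]

theorem o_conj21 (h : Nat.card G = 168) {M M' : Subgroup G} (hM : Nat.card M = 21) (hM' : Nat.card M' = 21) :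
    ∃ g : G, M' = M.map (MulAut.conj g).toMonoidHom := by
  obtain ⟨S, rfl⟩ := o_eq_N7 h hM
  obtain ⟨S', rfl⟩ := o_eq_N7 h hM'
  obtain ⟨g, hg⟩ := MulAction.exists_smul_eq G S S'
  refine ⟨g, ?_⟩
  rw [← normalizer_map_conj, ← coe_smul_eq_map, hg]

/-- Normalizers of different Klein four groups in `T` are not conjugate. -/
theorem o_normalizers_not_conj (h : Nat.card G = 168) (T : Sylow 2 G) {a b : G} (d : TData (T : Subgroup G) a b) (g : G) :
    normalizer (d.V1 : Set G) ≠ (normalizer (d.V0 : Set G)).map (MulAut.conj g).toMonoidHom := by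
  intro he
  rw [← normalizer_map_conj] at he
  have hV0 := d.V0_klein
  have hV1 := d.V1_klein
  let W : Subgroup G := d.V0.map (MulAut.conj g).toMonoidHom
  have hWk : IsKleinFour W := map_conj_klein hV0 g
  have hWcard : Nat.card W = 4 := hWk.card_four
  have hTV1 : (T : Subgroup G) ≤ normalizer (d.V1 : Set G) :=
    le_normalizer_of_relIndex_two d.V1_le (o_klein_rel h T d.V1_le hV1)
  have hWpg : IsPGroup 2 W := by
    rw [IsPGroup.iff_card, hWcard]
    exact ⟨2, by norm_num⟩
  have hV1pg : IsPGroup 2 d.V1 := by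
    rw [IsPGroup.iff_card, d.V1_card]
    exact ⟨2, by norm_num⟩
  have hV0pg : IsPGroup 2 d.V0 := by
    rw [IsPGroup.iff_card, d.V0_card]
    exact ⟨2, by norm_num⟩
  have hWT : W ≤ T := le_sylow_of_normalized hWpg T (by
    show (T : Subgroup G) ≤ normalizer (W : Set G)
    rw [← he]
    exact hTV1)
  rcases d.klein_cases hWT hWk with h1 | h1
  · -- `N(V₁) = N(V₀)`
    rw [show d.V0.map (MulAut.conj g).toMonoidHom = d.V0 from h1] at he
    -- a second Sylow subgroup of `N(V₁)`
    obtain ⟨y, hy⟩ := exists_prime_orderOf_dvd_card' (G := normalizer (d.V1 : Set G)) 3 (by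
      rw [o_klein_normalizer h hV1]; norm_num)
    have hyo : orderOf (y : G) = 3 := by rwa [Subgroup.orderOf_coe]
    let R : Sylow 2 G := (y : G) • T
    have hRL : (R : Subgroup G) ≤ normalizer (d.V1 : Set G) := by
      show (((y : G) • T : Sylow 2 G) : Subgroup G) ≤ _
      rw [Sylow.coe_subgroup_smul]
      rintro _ ⟨u, hu, rfl⟩
      exact mul_mem (mul_mem y.2 (hTV1 hu)) (inv_mem y.2)
    have hne : T ≠ R := by
      intro hTR
      have h2 : (y : G) ∈ normalizer ((T : Subgroup G) : Set G) :=
        Sylow.smul_eq_iff_mem_normalizer.1 hTR.symm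
      rw [o_N2 h T] at h2
      have h3 := Subgroup.orderOf_dvd_natCard _ h2
      rw [show Nat.card (T : Subgroup G) = 8 from o_card2 h T, hyo] at h3
      omega
    have hV1R : d.V1 ≤ R := le_sylow_of_normalized hV1pg R hRL
    have hV0R : d.V0 ≤ R := le_sylow_of_normalized hV0pg R (by
      rw [← he]
      exact hRL)
    have hbR : b ∈ (R : Subgroup G) := hV0R (mem_kl.2 (Or.inr (Or.inr (Or.inl rfl))))
    have hbaR : b * a ∈ (R : Subgroup G) := hV1R (mem_kl.2 (Or.inr (Or.inr (Or.inl rfl))))
    have haR : a ∈ (R : Subgroup G) := by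
      have := mul_mem (inv_mem hbR) hbaR
      simpa using this
    exact hne (o_order4_unique h T R d.ha haR d.hao)
  · exact o_klein_not_conj h T d.V0 d.V1 d.V0_le d.V1_le hV0 hV1 d.V0_ne_V1 g h1

/-- Coverage. -/
theorem o_coverage (h : Nat.card G = 168) (T : Sylow 2 G) {a b : G} (d : TData (T : Subgroup G) a b)
    {M : Subgroup G} (hM : Nat.card M = 24) :
    ∃ g : G, M = (normalizer (d.V0 : Set G)).map (MulAut.conj g).toMonoidHom ∨
      M = (normalizer (d.V1 : Set G)).map (MulAut.conj g).toMonoidHom := by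
  obtain ⟨K, hK, rfl⟩ := o_card24 h hM
  have hKpg : IsPGroup 2 K := by
    rw [IsPGroup.iff_card, hK.card_four]
    exact ⟨2, by norm_num⟩
  obtain ⟨R, hR⟩ := hKpg.exists_le_sylow
  obtain ⟨g, hg⟩ := MulAction.exists_smul_eq G T R
  refine ⟨g, ?_⟩
  rw [← normalizer_map_conj, ← normalizer_map_conj]
  -- `g⁻¹ K g ≤ T`
  let K' : Subgroup G := K.map (MulAut.conj g⁻¹).toMonoidHom
  have hK'k : IsKleinFour K' := map_conj_klein hK g⁻¹
  have hK'T : K' ≤ T := by
    rintro _ ⟨u, hu, rfl⟩
    have h1 : u ∈ ((g • T : Sylow 2 G) : Subgroup G) := by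
      rw [hg]
      exact hR hu
    rw [Sylow.coe_subgroup_smul] at h1
    obtain ⟨v, hv, rfl⟩ := h1
    show g⁻¹ * (g * v * g⁻¹) * g⁻¹⁻¹ ∈ (T : Subgroup G)
    have h2 : g⁻¹ * (g * v * g⁻¹) * g⁻¹⁻¹ = v := by group
    rw [h2]
    exact hv
  have hKeq : K = K'.map (MulAut.conj g).toMonoidHom := by
    ext x
    constructor
    · intro hx
      refine ⟨g⁻¹ * x * g⁻¹⁻¹, ⟨x, hx, rfl⟩, ?_⟩
      show g * (g⁻¹ * x * g⁻¹⁻¹) * g⁻¹ = x
      group
    · rintro ⟨_, ⟨u, hu, rfl⟩, rfl⟩
      show g * (g⁻¹ * u * g⁻¹⁻¹) * g⁻¹ ∈ K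
      have h2 : g * (g⁻¹ * u * g⁻¹⁻¹) * g⁻¹ = u := by group
      rw [h2]
      exact hu
  rcases d.klein_cases hK'T hK'k with h1 | h1
  · left
    rw [← h1, ← hKeq]
  · right
    rw [← h1, ← hKeq]

end O168

end Cfsg.Agent.H04.Small
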